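import Mathlib
import Cfsg.Prelude.Def_OddOrderLocal
import Cfsg.Agent.S0023
import Cfsg.Agent.S0024
import Cfsg.Agent.Lib.Cores
import Cfsg.Agent.QTSolv.Star

/-!
# Coprime action of `P` on `K` with `O_2(K) = 1`
-/

set_option autoImplicit false

open scoped commutatorElement Pointwise

namespace Cfsg.Agent.QTSolv.Coprime

open Subgroup Cfsg
open Cfsg.Agent.OddOrderLocal
open Cfsg.Agent.QTSolv.Star

/-- subgroups of coprime indices -/
theorem exists_mul_of_coprime {G : Type*} [Group G] [Finite G] (S C : Subgroup G) (h : Nat.Coprime S.index C.index)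
    (g : G) : ∃ s ∈ S, ∃ c ∈ C, g = s * c := by
  let F : S ⧸ C.subgroupOf S → G ⧸ C := Quotient.map' (fun s => (s : G)) (by
    intro a b hab
    rw [QuotientGroup.leftRel_apply] at hab ⊢
    exact hab)
  have hinj : Function.Injective F := by
    intro a b
    induction a using QuotientGroup.induction_on with
    | H a =>
      induction b using QuotientGroup.induction_on with
      | H b =>
        intro hab
        have h1 : (((a : G)) : G ⧸ C) = ((b : G) : G ⧸ C) := hab
        rw [QuotientGroup.eq] at h1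
        exact QuotientGroup.eq.2 h1
  have hcard : Nat.card (G ⧸ C) ≤ Nat.card (S ⧸ C.subgroupOf S) := by
    have h1 : C.relIndex S * S.index = S.relIndex C * C.index := by
      rw [← relIndex_top_right S, ← relIndex_top_right C, ← inf_relIndex_right C S, ← inf_relIndex_right S C,
        relIndex_mul_relIndex _ _ _ inf_le_right le_top, relIndex_mul_relIndex _ _ _ inf_le_right le_top, inf_comm]
    have h2 : C.index ∣ C.relIndex S * S.index := by
      rw [h1]
      exact dvd_mul_left _ _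
    have h3 : C.index ∣ C.relIndex S := h.symm.dvd_of_dvd_mul_right h2
    exact Nat.le_of_dvd (Nat.pos_of_ne_zero (index_ne_zero_of_finite)) h3
  have hbij := hinj.bijective_of_nat_card_le hcard
  obtain ⟨s, hs⟩ := hbij.2 (g : G ⧸ C)
  induction s using QuotientGroup.induction_on with
  | H s =>
    have h1 : ((s : G) : G ⧸ C) = (g : G ⧸ C) := hs
    rw [QuotientGroup.eq] at h1
    exact ⟨s, s.2, _, h1, by group⟩

variable {H : Type*} [Group H]

/-- the conclusion from the odd Sylow subgroups -/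
theorem le_centralizer_of_odd [Finite H] {p : ℕ} (hp : p.Prime) {K P : Subgroup H}
    (hP : IsPGroup p P) (hPK : P ≤ normalizer (K : Set H)) (hpK : ¬ p ∣ Nat.card K) (h2 : pCore 2 ↥K = ⊥)
    (hodd : ∀ (r : ℕ) (_ : r.Prime), r ≠ 2 → r ∣ Nat.card K → ∃ R : Sylow r K,
      P ≤ centralizer (((R : Subgroup K).map K.subtype : Subgroup H) : Set H)) :
    P ≤ centralizer (K : Set H) := by
  have hpf : Fact p.Prime := ⟨hp⟩
  have : Fact (Nat.Prime 2) := ⟨Nat.prime_two⟩
  have hcop : (Nat.card P).Coprime (Nat.card K) := by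
    obtain ⟨n, hn⟩ := IsPGroup.iff_card.1 hP
    rw [hn]
    exact Nat.Coprime.pow_left n ((Nat.Prime.coprime_iff_not_dvd hp).2 hpK)
  have hPs : Group.IsSolvable P := by
    have := hP.isNilpotent
    infer_instance
  obtain ⟨S₂, hS₂⟩ := Cfsg.Agent.S0023.result P K hPK hcop (Or.inl hPs) 2
  set C : Subgroup K := (centralizer (P : Set H)).subgroupOf K with hC
  -- the index of `C` is a power of two
  have hCi : ∀ r : ℕ, r.Prime → r ≠ 2 → ¬ r ∣ C.index := by
    intro r hr hr2 hd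
    have : Fact r.Prime := ⟨hr⟩
    obtain ⟨R, hR⟩ := hodd r hr hr2 (hd.trans (index_dvd_card C))
    have h1 : (R : Subgroup K) ≤ C := by
      intro y hy
      rw [hC, mem_subgroupOf, mem_centralizer_iff]
      intro x hx
      exact ((mem_centralizer_iff.1 (hR hx)) (y : H) ⟨y, hy, rfl⟩).symm
    exact R.not_dvd_index (hd.trans (index_dvd_of_le h1))
  have hcop2 : Nat.Coprime (S₂ : Subgroup K).index C.index := by
    apply Nat.Coprime.symm
    rw [Nat.coprime_iff_gcd_eq_one]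
    by_contra hne
    obtain ⟨r, hr, hrd⟩ := Nat.exists_prime_and_dvd hne
    have h1 : r ∣ C.index := hrd.trans (Nat.gcd_dvd_left _ _)
    have h2 : r ∣ (S₂ : Subgroup K).index := hrd.trans (Nat.gcd_dvd_right _ _)
    by_cases hr2 : r = 2
    · subst hr2
      exact S₂.not_dvd_index h2
    · exact hCi r hr hr2 h1
  set S : Subgroup H := (S₂ : Subgroup K).map K.subtype with hS
  have hcomm : ⁅K, P⁆ ≤ S := by
    rw [commutator_le]
    intro k hk x hx
    obtain ⟨s, hs, c, hc, hsc⟩ := exists_mul_of_coprime (S₂ : Subgroup K) C hcop2 ⟨k, hk⟩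
    have h1 : k = (s : H) * (c : H) := congrArg Subtype.val hsc
    have h3 : (c : H) * x = x * c := (mem_centralizer_iff.1 (mem_subgroupOf.1 hc) x hx).symm
    have h4 : ⁅k, x⁆ = (s : H) * (x * (s : H)⁻¹ * x⁻¹) := by
      rw [h1, commutatorElement_def, mul_inv_rev]
      calc (s : H) * c * x * ((c : H)⁻¹ * (s : H)⁻¹) * x⁻¹ = (s : H) * (c * x * (c : H)⁻¹) * (s : H)⁻¹ * x⁻¹ := by group
        _ = (s : H) * (x * (s : H)⁻¹ * x⁻¹) := by rw [h3]; group
    rw [h4]
    have hsS : (s : H) ∈ S := ⟨s, hs, rfl⟩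
    exact S.mul_mem hsS ((mem_normalizer_iff.1 (hS₂ hx) _).1 (S.inv_mem hsS))
  have hle : ⁅K, P⁆ ≤ K := hcomm.trans (map_subtype_le _)
  have hbot : ⁅K, P⁆ = ⊥ := by
    have h3 : ((⁅K, P⁆).subgroupOf K).Normal := by
      have h4 : K ≤ normalizer ((⁅K, P⁆ : Subgroup H) : Set H) := normalizer_commutator_ge_left ..
      exact (normal_subgroupOf_iff_le_normalizer hle).2 h4
    have h4 : IsPGroup 2 ↥((⁅K, P⁆).subgroupOf K) := by
      have h5 : (⁅K, P⁆).subgroupOf K ≤ (S₂ : Subgroup K) := by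
        intro y hy
        obtain ⟨z, hz, hzy⟩ := hcomm (mem_subgroupOf.1 hy)
        rwa [← show z = y from Subtype.ext hzy]
      exact S₂.isPGroup'.to_le h5
    have h5 : (⁅K, P⁆).subgroupOf K ≤ pCore 2 ↥K := Lib.Cores.le_pCore h3 h4
    rw [h2, le_bot_iff, subgroupOf_eq_bot] at h5
    exact disjoint_self.1 (h5.mono_right hle)
  rw [commutator_comm] at hbot
  exact commutator_eq_bot_iff_le_centralizer.1 hbot

/-- **An invariant Sylow subgroup and a modification of `S` normalising it.** -/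
theorem exists_sylow_modify [Finite H] {p : ℕ} (hp : p.Prime) {K P S : Subgroup H}
    (hP : IsPGroup p P) (hPK : P ≤ normalizer (K : Set H)) (hSK : S ≤ normalizer (K : Set H))
    (hSP : S ≤ normalizer (P : Set H)) (hpK : ¬ p ∣ Nat.card K) (r : ℕ) [Fact r.Prime] :
    ∃ (R : Sylow r K) (S' : Subgroup H), P ≤ normalizer ((R : Subgroup K).map K.subtype : Set H) ∧
      S' ≤ normalizer ((R : Subgroup K).map K.subtype : Set H) ∧ S' ≤ normalizer (P : Set H) ∧
      ∀ s ∈ S, ∃ c ∈ centralizer (P : Set H), c * s ∈ S' := by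
  have hpf : Fact p.Prime := ⟨hp⟩
  have hcop : (Nat.card P).Coprime (Nat.card K) := by
    obtain ⟨n, hn⟩ := IsPGroup.iff_card.1 hP
    rw [hn]
    exact Nat.Coprime.pow_left n ((Nat.Prime.coprime_iff_not_dvd hp).2 hpK)
  have hPs : Group.IsSolvable P := by
    have := hP.isNilpotent
    infer_instance
  obtain ⟨R, hR⟩ := Cfsg.Agent.S0023.result P K hPK hcop (Or.inl hPs) r
  refine ⟨R, normalizer ((R : Subgroup K).map K.subtype : Set H) ⊓ normalizer (P : Set H), hR, inf_le_left,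
    inf_le_right, ?_⟩
  intro s hs
  -- the conjugate of `R` under `s`
  set φ : MulAut K := normalizerMonoidHom K ⟨s, hSK hs⟩ with hφ
  have hφa : ∀ k : K, ((φ k : K) : H) = s * k * s⁻¹ := fun k => rfl
  set R' : Sylow r K := φ • R with hR'
  have hR'm : ((R' : Subgroup K).map K.subtype : Subgroup H)
      = ((R : Subgroup K).map K.subtype).map (MulAut.conj s).toMonoidHom := by
    rw [hR', Sylow.pointwise_smul_def]
    ext x
    constructor
    · rintro ⟨y, hy, rfl⟩
      obtain ⟨z, hz, rfl⟩ := hy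
      exact ⟨z, ⟨z, hz, rfl⟩, rfl⟩
    · rintro ⟨_, ⟨z, hz, rfl⟩, rfl⟩
      exact ⟨φ z, ⟨z, hz, rfl⟩, rfl⟩
  have hR'P : P ≤ normalizer ((R' : Subgroup K).map K.subtype : Set H) := by
    rw [hR'm, le_normalizer_iff]
    rintro x hx _ ⟨y, hy, rfl⟩
    have h1 : s⁻¹ * x * s ∈ P := by
      have := (mem_normalizer_iff.1 (inv_mem (hSP hs)) x).1 hx
      rwa [inv_inv] at this
    refine ⟨(s⁻¹ * x * s) * y * (s⁻¹ * x * s)⁻¹, (mem_normalizer_iff.1 (hR h1) y).1 hy, ?_⟩
    change s * ((s⁻¹ * x * s) * y * (s⁻¹ * x * s)⁻¹) * s⁻¹ = x * (s * y * s⁻¹) * x⁻¹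
    group
  obtain ⟨c, hc, hcR⟩ := Cfsg.Agent.S0024.result P K hPK hcop (Or.inl hPs) r R' R hR'P hR
  refine ⟨c, hc, ?_, ?_⟩
  · have h1 : ∀ x ∈ (R : Subgroup K).map K.subtype, ((c : H) * s) * x * ((c : H) * s)⁻¹ ∈
        (R : Subgroup K).map K.subtype := by
      rintro _ ⟨y, hy, rfl⟩
      have h2 : MulAut.conj c (φ y) ∈ (R : Subgroup K) := by
        have h3 : (MulAut.conj c • R' : Sylow r K) = R := hcR
        rw [← h3]
        change _ ∈ ((MulAut.conj c • R' : Sylow r K) : Subgroup K)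
        rw [Sylow.pointwise_smul_def]
        refine ⟨φ y, ?_, rfl⟩
        change _ ∈ ((φ • R : Sylow r K) : Subgroup K)
        rw [Sylow.pointwise_smul_def]
        exact ⟨y, hy, rfl⟩
      refine ⟨_, h2, ?_⟩
      change ((c * φ y * c⁻¹ : K) : H) = (c : H) * s * y * ((c : H) * s)⁻¹
      rw [Subgroup.coe_mul, Subgroup.coe_mul, hφa, Subgroup.coe_inv]
      group
    -- a finite subgroup
    have h2 : ((c : H) * s) ∈ normalizer ((R : Subgroup K).map K.subtype : Set H) := by
      have h3 : ((R : Subgroup K).map K.subtype).map (MulAut.conj ((c : H) * s)).toMonoidHom ≤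
          (R : Subgroup K).map K.subtype := by
        rintro _ ⟨x, hx, rfl⟩
        exact h1 x hx
      have h4 : ((R : Subgroup K).map K.subtype).map (MulAut.conj ((c : H) * s)).toMonoidHom =
          (R : Subgroup K).map K.subtype := by
        apply eq_of_le_of_card_ge h3
        exact (Nat.card_congr (equivMapOfInjective _ (MulAut.conj ((c : H) * s)).toMonoidHom
          (MulAut.conj ((c : H) * s)).injective).toEquiv).le
      rw [mem_normalizer_iff]
      intro x
      refine ⟨h1 x, fun hx => ?_⟩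
      rw [← h4] at hx
      obtain ⟨y, hy, hyx⟩ := hx
      have h5 : ((c : H) * s) * y * ((c : H) * s)⁻¹ = ((c : H) * s) * x * ((c : H) * s)⁻¹ := hyx
      have h6 : y = x := by
        have := mul_left_cancel (mul_right_cancel h5)
        exact this
      rwa [← h6]
    exact h2
  · have h1 : (c : H) ∈ normalizer (P : Set H) := centralizer_le_normalizer _ hc
    exact mul_mem h1 (hSP hs)

/-- Case of `Star P S`. -/
theorem le_centralizer_of_star [Finite H] {p : ℕ} (hp : p.Prime) (hp2 : p ≠ 2) {K P S : Subgroup H}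
    (hP : IsPGroup p P) (hPK : P ≤ normalizer (K : Set H)) (hSK : S ≤ normalizer (K : Set H))
    (hSP : S ≤ normalizer (P : Set H)) (hpK : ¬ p ∣ Nat.card K) (h2 : pCore 2 ↥K = ⊥)
    (hr : ∀ r : ℕ, r.Prime → r ≠ 2 → PRankLE r 2 K) (h : Star P S) : P ≤ centralizer (K : Set H) := by
  refine le_centralizer_of_odd hp hP hPK hpK h2 ?_
  intro r hrp hr2 hrd
  have hrf : Fact r.Prime := ⟨hrp⟩
  obtain ⟨R, S', h3, h4, h5, h6⟩ := exists_sylow_modify hp hP hPK hSK hSP hpK r
  refine ⟨R, ?_⟩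
  have hpr : p ≠ r := fun h7 => hpK (h7 ▸ hrd)
  have hRr : IsPGroup r ↥((R : Subgroup K).map K.subtype) := R.isPGroup'.map _
  have hrk : PRankLE r 2 ↥((R : Subgroup K).map K.subtype) :=
    Rank.pRankLE_mono (map_subtype_le _) (hr r hrp hr2)
  exact le_centralizer_of_rank hp hp2 hr2 hpr hRr hrk hP h3 h4 h5 (star_of_modify hSP h6 h)

/-- Case of cyclic Sylow subgroups and `P = [P, S]`. -/
theorem le_centralizer_of_cyclic [Finite H] {p : ℕ} (hp : p.Prime) {K P S : Subgroup H}
    (hP : IsPGroup p P) (hPK : P ≤ normalizer (K : Set H)) (hSK : S ≤ normalizer (K : Set H))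
    (hSP : S ≤ normalizer (P : Set H)) (hpK : ¬ p ∣ Nat.card K) (h2 : pCore 2 ↥K = ⊥)
    (hr : ∀ (r : ℕ) (R : Sylow r K), r.Prime → r ≠ 2 → IsCyclic R) (h : P ≤ ⁅P, S⁆) : P ≤ centralizer (K : Set H) := by
  refine le_centralizer_of_odd hp hP hPK hpK h2 ?_
  intro r hrp hr2 hrd
  have hrf : Fact r.Prime := ⟨hrp⟩
  obtain ⟨R, S', h3, h4, h5, h6⟩ := exists_sylow_modify hp hP hPK hSK hSP hpK r
  refine ⟨R, ?_⟩
  have hcyc := hr r R hrp hr2
  set R₁ : Subgroup H := (R : Subgroup K).map K.subtype with hR₁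
  have hcyc₁ : IsCyclic R₁ := by
    rw [hR₁]
    exact (equivMapOfInjective (R : Subgroup K) K.subtype K.subtype_injective).isCyclic.1 hcyc
  -- commutators of `N(R₁)` centralise `R₁`
  have hker : ∀ a ∈ normalizer (R₁ : Set H), ∀ b ∈ normalizer (R₁ : Set H), ⁅a, b⁆ ∈ centralizer (R₁ : Set H) := by
    intro a ha b hb
    have h7 : normalizerMonoidHom R₁ ⁅(⟨a, ha⟩ : ↥(normalizer (R₁ : Set H))), ⟨b, hb⟩⁆ = 1 := by
      rw [map_commutatorElement, commutatorElement_eq_one_iff_mul_comm]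
      obtain ⟨g, hg⟩ := hcyc₁.exists_generator
      have hpow : ∀ (α : MulAut R₁), ∃ k : ℤ, ∀ x, α x = x ^ k := by
        intro α
        obtain ⟨k, hk⟩ := mem_zpowers_iff.1 (hg (α g))
        refine ⟨k, fun x => ?_⟩
        obtain ⟨l, rfl⟩ := mem_zpowers_iff.1 (hg x)
        rw [map_zpow, ← hk, ← zpow_mul, ← zpow_mul, mul_comm]
      obtain ⟨k, hk⟩ := hpow (normalizerMonoidHom R₁ ⟨a, ha⟩)
      obtain ⟨l, hl⟩ := hpow (normalizerMonoidHom R₁ ⟨b, hb⟩)
      ext x
      rw [MulAut.mul_apply, MulAut.mul_apply, hk, hl, hl, hk, ← zpow_mul, ← zpow_mul, mul_comm]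
    have h8 : (⁅(⟨a, ha⟩ : ↥(normalizer (R₁ : Set H))), ⟨b, hb⟩⁆ : ↥(normalizer (R₁ : Set H))) ∈
        (normalizerMonoidHom R₁).ker := h7
    rw [normalizerMonoidHom_ker] at h8
    exact h8
  refine h.trans ?_
  rw [commutator_le]
  intro x hx s hs
  obtain ⟨c, hc, hcs⟩ := h6 s hs
  have h7 := hker x (h3 hx) (c * s) (h4 hcs)
  have h8 : ⁅x, c * s⁆ = ⁅x, s⁆ := by
    have h9 : s * x⁻¹ * s⁻¹ ∈ P := (mem_normalizer_iff.1 (hSP hs) _).1 (P.inv_mem hx)
    have h10 := (mem_centralizer_iff.1 hc) _ h9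
    rw [commutatorElement_def, commutatorElement_def]
    calc x * (c * s) * x⁻¹ * (c * s)⁻¹ = x * (c * (s * x⁻¹ * s⁻¹) * c⁻¹) := by group
      _ = x * s * x⁻¹ * s⁻¹ := by rw [← h10]; group
  rwa [h8] at h7

end Cfsg.Agent.QTSolv.Coprime
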