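import Mathlib
import Cfsg.Agent.S0636
import Cfsg.Agent.OddOrderLocal.RankTwoPrimeAut
import Cfsg.Agent.Lib.NormalAbelian
import Cfsg.Agent.Lib.SylowNormalInf
import Cfsg.Agent.Lib.CoprimeCommutator
import Cfsg.Agent.QTSolv.Data

/-!
# Components of order divisible by `p`
-/

set_option autoImplicit false

open scoped commutatorElement Pointwise

namespace Cfsg.Agent.QTSolv.Rank

open Subgroup Cfsg
open Cfsg.Agent.OddOrderLocal
open Cfsg.Agent.OddOrderLocal.Rank (elemAb_zpowers elemAb_sup pRankLE_def)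
open Cfsg.Agent.QTSolv.Star Cfsg.Agent.QTSolv.Data

variable {H : Type*} [Group H]

/-- A nontrivial normal subgroup of a Sylow subgroup contains a central element of order `p`. -/
theorem exists_central [Finite H] {p : ℕ} [hpf : Fact p.Prime] {W : Subgroup H} (hW : IsPGroup p W) {N : Subgroup H}
    (hN : (N.subgroupOf W).Normal) (hne : N ⊓ W ≠ ⊥) : ∃ z ∈ N ⊓ W, z ≠ 1 ∧ z ^ p = 1 ∧ ∀ w ∈ W, w * z = z * w := by
  have : Group.IsNilpotent W := hW.isNilpotent
  have h1 : N.subgroupOf W ≠ ⊥ := by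
    intro h
    rw [subgroupOf_eq_bot] at h
    exact hne (disjoint_iff.1 h)
  have h2 := Lib.NormalAbelian.normal_inf_center_ne_bot (N.subgroupOf W) h1
  set Z : Subgroup W := N.subgroupOf W ⊓ center W with hZ
  have hZp : IsPGroup p Z := hW.to_subgroup Z
  have : Nontrivial Z := (nontrivial_iff_ne_bot Z).2 h2
  obtain ⟨k, hk0, hk⟩ := hZp.nontrivial_iff_card.1 this
  obtain ⟨z, hz⟩ := exists_prime_orderOf_dvd_card' (G := Z) p (by rw [hk]; exact dvd_pow_self p hk0.ne')
  have hz1 : z ^ p = 1 := by rw [← hz]; exact pow_orderOf_eq_one z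
  refine ⟨((z : W) : H), ⟨z.2.1, (z : W).2⟩, ?_, ?_, ?_⟩
  · intro h
    have h3 : z = 1 := Subtype.ext (Subtype.ext h)
    rw [h3, orderOf_one] at hz
    exact hpf.out.one_lt.ne hz
  · exact congrArg (fun y : Z => ((y : W) : H)) hz1
  · intro w hw
    have h3 := (mem_center_iff.1 z.2.2) ⟨w, hw⟩
    exact congrArg Subtype.val h3

theorem elemAb_pair {p : ℕ} {a b : H} (ha : a ^ p = 1) (hb : b ^ p = 1) (hab : a * b = b * a) :
    IsElementaryAbelian p (zpowers a ⊔ zpowers b : Subgroup H) := by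
  refine elemAb_sup (elemAb_zpowers ha) (elemAb_zpowers hb) ?_
  rintro _ ⟨i, rfl⟩ _ ⟨j, rfl⟩
  exact ((show Commute a b from hab).zpow_left i).zpow_right j

/-- A Sylow `p`-subgroup meets a normal subgroup of order divisible by `p`. -/
theorem inf_ne_bot [Finite H] {p : ℕ} [hpf : Fact p.Prime] (W : Sylow p H) (K : Subgroup H) [K.Normal]
    (hpK : p ∣ Nat.card K) : K ⊓ (W : Subgroup H) ≠ ⊥ := by
  intro h
  have h1 := Lib.SylowNormalInf.not_dvd_relIndex W K
  apply h1
  have h2 : (W : Subgroup H).relIndex K = Nat.card K := by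
    rw [← inf_relIndex_right, inf_comm, h, relIndex_bot_left]
  rw [h2]
  exact hpK

/-- Commutators of elements normalising a cyclic group centralise it. -/
theorem commutator_mem_centralizer {R : Subgroup H} (hc : IsCyclic R) {a b : H} (ha : a ∈ normalizer (R : Set H))
    (hb : b ∈ normalizer (R : Set H)) : ⁅a, b⁆ ∈ centralizer (R : Set H) := by
  have h7 : normalizerMonoidHom R ⁅(⟨a, ha⟩ : ↥(normalizer (R : Set H))), ⟨b, hb⟩⁆ = 1 := by
    rw [map_commutatorElement, commutatorElement_eq_one_iff_mul_comm]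
    obtain ⟨g, hg⟩ := hc.exists_generator
    have hpow : ∀ (α : MulAut R), ∃ k : ℤ, ∀ x, α x = x ^ k := by
      intro α
      obtain ⟨k, hk⟩ := mem_zpowers_iff.1 (hg (α g))
      refine ⟨k, fun x => ?_⟩
      obtain ⟨l, rfl⟩ := mem_zpowers_iff.1 (hg x)
      rw [map_zpow, ← hk, ← zpow_mul, ← zpow_mul, mul_comm]
    obtain ⟨k, hk⟩ := hpow (normalizerMonoidHom R ⟨a, ha⟩)
    obtain ⟨l, hl⟩ := hpow (normalizerMonoidHom R ⟨b, hb⟩)
    ext x
    rw [MulAut.mul_apply, MulAut.mul_apply, hk, hl, hl, hk, ← zpow_mul, ← zpow_mul, mul_comm]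
  have h8 : (⁅(⟨a, ha⟩ : ↥(normalizer (R : Set H))), ⟨b, hb⟩⁆ : ↥(normalizer (R : Set H))) ∈
      (normalizerMonoidHom R).ker := h7
  rw [normalizerMonoidHom_ker] at h8
  exact h8

/-- **(IIb)** If `P` of exponent `p` normalises two disjoint commuting subgroups of order divisible by `p` in a group
of `p`-rank at most two, then `P ≤ K L`. -/
theorem le_sup_of_commute [Finite H] {p : ℕ} [hpf : Fact p.Prime] (hr : PRankLE p 2 H) {K L P : Subgroup H}
    (hK : K.Normal) (hL : L.Normal) (hd : Disjoint K L) (hpK : p ∣ Nat.card K) (hpL : p ∣ Nat.card L)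
    (hP : IsPGroup p P) (hexp : ∀ x ∈ P, x ^ p = 1) : P ≤ K ⊔ L := by
  obtain ⟨W, hPW⟩ := hP.exists_le_sylow
  have hKW : (K.subgroupOf (W : Subgroup H)).Normal := inferInstance
  have hLW : (L.subgroupOf (W : Subgroup H)).Normal := inferInstance
  obtain ⟨a, ha, ha1, hap, haW⟩ := exists_central W.isPGroup' hKW (inf_ne_bot W K hpK)
  obtain ⟨b, hb, hb1, hbp, hbW⟩ := exists_central W.isPGroup' hLW (inf_ne_bot W L hpL)
  have hab : a * b = b * a := hbW a ha.2
  have hE := elemAb_pair hap hbp hab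
  have hcard : Nat.card ↥(zpowers a ⊔ zpowers b : Subgroup H) = p ^ 2 := by
    refine le_antisymm (pRankLE_def.mp hr _ hE) ?_
    have hlt : zpowers a < zpowers a ⊔ zpowers b := by
      refine lt_of_le_of_ne le_sup_left fun h => hb1 ?_
      have h1 : b ∈ zpowers a := by rw [h]; exact mem_sup_right (mem_zpowers b)
      have h2 : zpowers a ≤ K := (zpowers_le).2 ha.1
      exact (disjoint_def.1 hd) (h2 h1) hb.1
    have hEp : IsPGroup p ↥(zpowers a ⊔ zpowers b : Subgroup H) := OddOrderLocal.Rank.elemAb_isPGroup hE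
    obtain ⟨k, hk⟩ := IsPGroup.iff_card.1 hEp
    have h3 : Nat.card (zpowers a) = p := by
      rw [Nat.card_zpowers]
      exact orderOf_eq_prime hap ha1
    have h4 : Nat.card (zpowers a) < Nat.card ↥(zpowers a ⊔ zpowers b : Subgroup H) := by
      refine lt_of_le_of_ne (card_le_of_le hlt.le) fun h => hlt.ne (eq_of_le_of_card_ge hlt.le h.ge)
    rw [hk, h3] at h4
    rw [hk]
    apply Nat.pow_le_pow_right hpf.out.pos
    by_contra hk2
    push Not at hk2
    have : p ^ k ≤ p ^ 1 := Nat.pow_le_pow_right hpf.out.pos (by omega)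
    rw [pow_one] at this
    omega
  have hle : zpowers a ⊔ zpowers b ≤ K ⊔ L :=
    sup_le_sup ((zpowers_le).2 ha.1) ((zpowers_le).2 hb.1)
  intro x hx
  apply hle
  apply RankTwoPrimeAut.mem_of_commute hr _ hE hcard (hexp x hx)
  have h1 : zpowers a ⊔ zpowers b ≤ centralizer ({x} : Set H) := by
    refine sup_le ?_ ?_
    · rw [zpowers_le, mem_centralizer_singleton_iff]
      exact (haW x (hPW hx)).symm
    · rw [zpowers_le, mem_centralizer_singleton_iff]
      exact (hbW x (hPW hx)).symm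
  intro m hm
  have h2 := h1 hm
  rwa [mem_centralizer_singleton_iff] at h2

/-- `P ∩ K ≤ F` for a normal subgroup `K` not containing `P`. -/
theorem inf_le_F [Finite H] {p : ℕ} {P S F : Subgroup H} (D : Dat p P S F) {K : Subgroup H} (hK : K.Normal)
    (hPK : ¬ P ≤ K) : P ⊓ K ≤ F := by
  have hn : ∀ s ∈ S, s ∈ normalizer ((P ⊓ K : Subgroup H) : Set H) := by
    intro s hs
    apply mem_normalizer_of_conj
    intro y hy
    exact ⟨(mem_normalizer_iff.1 (D.S_le hs) y).1 hy.1, hK.conj_mem y hy.2 s⟩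
  rcases D.irr ((P ⊓ K) ⊔ F) le_sup_right (sup_le inf_le_left D.F_le)
    (fun s hs => mem_normalizer_sup (hn s hs) (D.F_norm hs)) with h | h
  · rw [← h]
    exact le_sup_left
  · exfalso
    apply hPK
    have h1 := D.ngen _ inf_le_left h
    rw [← h1]
    exact inf_le_right

/-- **(IIc1)** Noncyclic Sylow intersection. -/
theorem false_of_noncyclic [Finite H] {p : ℕ} {P S F : Subgroup H} (D : Dat p P S F) (hr : PRankLE p 2 H)
    {K : Subgroup H} (hK : K.Normal) (hPK : P ⊓ K ≤ F) (W : Sylow p H) (hPW : P ≤ W)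
    (hc : ¬ IsCyclic ↥(K.subgroupOf (W : Subgroup H))) : False := by
  have hpf : Fact p.Prime := ⟨D.prime⟩
  obtain ⟨A₁, hA₁K, hA₁n, hA₁e, hA₁c⟩ := Cfsg.Agent.S0636.result D.odd W.isPGroup' (K.subgroupOf (W : Subgroup H)) hc
  set A : Subgroup H := A₁.map (W : Subgroup H).subtype with hA
  have hAK : A ≤ K := by
    rintro _ ⟨y, hy, rfl⟩
    exact hA₁K hy
  have hWA : (W : Subgroup H) ≤ normalizer (A : Set H) := by
    rw [le_normalizer_iff]
    rintro w hw _ ⟨y, hy, rfl⟩
    exact ⟨⟨w, hw⟩ * y * ⟨w, hw⟩⁻¹, hA₁n.conj_mem y hy ⟨w, hw⟩, rfl⟩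
  have hAe : IsElementaryAbelian p A := OddOrderLocal.Rank.elemAb_map (W : Subgroup H).subtype hA₁e
  have hAc : Nat.card A = p ^ 2 := by
    rw [← hA₁c]
    exact (Nat.card_congr (equivMapOfInjective A₁ _ (W : Subgroup H).subtype_injective).toEquiv).symm
  set C : Subgroup H := P ⊓ centralizer (A : Set H) with hC
  have hCF : C ≤ F := by
    refine le_trans ?_ hPK
    intro x hx
    refine ⟨hx.1, hAK ?_⟩
    exact RankTwoPrimeAut.mem_of_commute hr A hAe hAc (D.pow_eq_one x hx.1) (fun m hm =>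
      (mem_centralizer_iff.1 hx.2) m hm)
  -- `|P : C| ≤ p`
  have hPA : P ≤ normalizer (A : Set H) := hPW.trans hWA
  let _ : CommGroup A := { (inferInstance : Group A) with mul_comm := fun a b => hAe.1.is_comm.comm a b }
  set N : Subgroup H := normalizer (A : Set H) with hN
  have hPN : IsPGroup p (P.subgroupOf N) := D.pgroup.comap_of_injective N.subtype N.subtype_injective
  have h1 : Nat.card ((P.subgroupOf N).map (normalizerMonoidHom A)) ∣ p :=
    card_map_dvd hPN (V := A) (fun v => Subtype.ext (hAe.2 v v.2)) hAc.le (normalizerMonoidHom A)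
  -- the order of `P`
  have h2 : Nat.card P = Nat.card ((P.subgroupOf N).map (normalizerMonoidHom A)) * Nat.card C := by
    set g : ↥(P.subgroupOf N) →* MulAut A := (normalizerMonoidHom A).comp (P.subgroupOf N).subtype with hg
    have h3 : (P.subgroupOf N).map (normalizerMonoidHom A) = g.range := by
      rw [hg, MonoidHom.range_comp, range_subtype]
    have h4 : Nat.card g.ker = Nat.card C := by
      have h5 : g.ker.map (N.subtype.comp (P.subgroupOf N).subtype) = C := by
        ext x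
        constructor
        · rintro ⟨y, hy, rfl⟩
          refine ⟨y.2, ?_⟩
          have h6 : (y : N) ∈ (normalizerMonoidHom A).ker := hy
          rw [normalizerMonoidHom_ker] at h6
          exact h6
        · rintro ⟨hx, hx2⟩
          refine ⟨⟨⟨x, hPA hx⟩, hx⟩, ?_, rfl⟩
          have h6 : (⟨x, hPA hx⟩ : N) ∈ (normalizerMonoidHom A).ker := by
            rw [normalizerMonoidHom_ker]
            exact hx2
          exact h6
      rw [← h5]
      exact Nat.card_congr (equivMapOfInjective g.ker (N.subtype.comp (P.subgroupOf N).subtype)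
        (fun a b hab => Subtype.ext (Subtype.ext hab))).toEquiv
    have h5 : Nat.card ↥(P.subgroupOf N) = Nat.card P := Nat.card_congr (subgroupOfEquivOfLe hPA).toEquiv
    rw [h3, ← h4, ← h5, ← index_ker, mul_comm]
    exact (card_mul_index g.ker).symm
  have h3 : Nat.card C ≤ Nat.card F := card_le_of_le hCF
  have h4 := Nat.le_of_dvd D.prime.pos h1
  have h5 : p ^ 2 * Nat.card F ≤ p * Nat.card F := by
    rw [← D.card, h2]
    exact Nat.mul_le_mul h4 h3
  have h6 : 0 < Nat.card F := Nat.card_pos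
  have h7 : p ^ 2 ≤ p := Nat.le_of_mul_le_mul_right h5 h6
  have := D.prime.one_lt
  nlinarith

/-- Burnside: in a perfect group of order divisible by `p`, a Sylow `p`-subgroup is not central in its normaliser. -/
theorem exists_mem_normalizer_not_centralizer {K : Type*} [Group K] [Finite K] {p : ℕ} [Fact p.Prime]
    (hperf : commutator K = ⊤) (Q : Sylow p K) (hp : p ∣ Nat.card K) :
    ∃ n : K, n ∈ normalizer (Q : Set K) ∧ n ∉ centralizer (Q : Set K) := by
  by_contra hcon
  push Not at hcon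
  have hle : normalizer (Q : Set K) ≤ centralizer (Q : Set K) := fun n hn => hcon n hn
  have h1 := MonoidHom.ker_transferSylow_isComplement' Q hle
  have hcomm : IsMulCommutative Q := ⟨⟨fun a b => Subtype.ext (hle (le_normalizer b.2) a a.2)⟩⟩
  have h2 : (MonoidHom.transferSylow Q hle).ker = ⊤ := by
    rw [eq_top_iff, ← hperf, commutator_def, commutator_le]
    intro a _ b _
    rw [MonoidHom.mem_ker, map_commutatorElement, commutatorElement_eq_one_iff_mul_comm]
    exact hcomm.is_comm.comm _ _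
  rw [h2] at h1
  have h3 : (Q : Subgroup K) = ⊥ := by
    have := h1.disjoint
    rwa [top_disjoint] at this
  have h4 := Q.ne_bot_of_dvd_card hp
  exact h4 h3

/-- The element `m ∈ K ∩ N(W)` not centralising `K ∩ W`. -/
theorem exists_mem_normalizer [Finite H] {p : ℕ} [hpf : Fact p.Prime] {K : Subgroup H} (hK : K.Normal)
    (hperf : ⁅K, K⁆ = K) (hpK : p ∣ Nat.card K) (W : Sylow p H) (hc : IsCyclic ↥(K ⊓ (W : Subgroup H) : Subgroup H)) :
    ∃ m ∈ K, m ∈ normalizer ((W : Subgroup H) : Set H) ∧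
      m ∉ centralizer ((K ⊓ (W : Subgroup H) : Subgroup H) : Set H) := by
  set Q₀ : Subgroup H := K ⊓ (W : Subgroup H) with hQ₀
  let Q : Sylow p K := (Lib.SylowNormalInf.isPGroup_subgroupOf W K).toSylow (Lib.SylowNormalInf.not_dvd_relIndex W K)
  have hQ : (Q : Subgroup K) = (W : Subgroup H).subgroupOf K := rfl
  have hKp : commutator K = ⊤ := by
    have := (isPerfect_iff.2 hperf : Group.IsPerfect K)
    exact this.commutator_eq_top
  obtain ⟨n, hn1, hn2⟩ := exists_mem_normalizer_not_centralizer hKp Q hpK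
  -- `n` normalises `Q₀`
  have hnQ : (n : H) ∈ normalizer (Q₀ : Set H) := by
    apply mem_normalizer_of_conj
    intro y hy
    have h1 : (⟨y, hy.1⟩ : K) ∈ (Q : Subgroup K) := hy.2
    have h2 := (mem_normalizer_iff.1 hn1 _).1 h1
    exact ⟨K.mul_mem (K.mul_mem n.2 hy.1) (K.inv_mem n.2), h2⟩
  have hnC : (n : H) ∉ centralizer (Q₀ : Set H) := by
    intro h
    apply hn2
    rw [mem_centralizer_iff]
    intro y hy
    apply Subtype.ext
    exact (mem_centralizer_iff.1 h) (y : H) ⟨y.2, hy⟩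
  have hWQ : (W : Subgroup H) ≤ normalizer (Q₀ : Set H) := by
    intro w hw
    apply mem_normalizer_of_conj
    intro y hy
    exact ⟨hK.conj_mem y hy.1 w, (W : Subgroup H).mul_mem ((W : Subgroup H).mul_mem hw hy.2) ((W : Subgroup H).inv_mem hw)⟩
  set C₁ : Subgroup H := K ⊓ centralizer (Q₀ : Set H) with hC₁
  have hWC : (W : Subgroup H) ≤ normalizer (C₁ : Set H) := by
    intro w hw
    apply mem_normalizer_of_conj
    intro y hy
    refine ⟨hK.conj_mem y hy.1 w, mem_centralizer_iff.2 fun x hx => ?_⟩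
    have h1 : w⁻¹ * x * w ∈ Q₀ := by
      have := (mem_normalizer_iff.1 (inv_mem (hWQ hw)) x).1 hx
      rwa [inv_inv] at this
    have h2 := (mem_centralizer_iff.1 hy.2) _ h1
    calc x * (w * y * w⁻¹) = w * ((w⁻¹ * x * w) * y) * w⁻¹ := by group
      _ = w * (y * (w⁻¹ * x * w)) * w⁻¹ := by rw [h2]
      _ = w * y * w⁻¹ * x := by group
  set Y : Subgroup H := C₁ ⊔ (W : Subgroup H) with hY
  have hWY : (W : Subgroup H) ≤ Y := le_sup_right
  have hnWY : (((n : H) • W : Sylow p H) : Subgroup H) ≤ Y := by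
    rintro _ ⟨w, hw, rfl⟩
    change (n : H) * w * (n : H)⁻¹ ∈ Y
    have h1 : (n : H) * w * (n : H)⁻¹ = ⁅(n : H), w⁆ * w := by rw [commutatorElement_def]; group
    have h2 : ⁅(n : H), w⁆ ∈ C₁ := by
      refine ⟨?_, commutator_mem_centralizer hc hnQ (hWQ hw)⟩
      have h3 : ⁅(n : H), w⁆ = n * (w * (n : H)⁻¹ * w⁻¹) := by rw [commutatorElement_def]; group
      rw [h3]
      exact K.mul_mem n.2 (hK.conj_mem _ (K.inv_mem n.2) w)
    rw [h1]
    exact mul_mem (mem_sup_left h2) (mem_sup_right hw)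
  obtain ⟨y, hy⟩ := MulAction.exists_smul_eq Y (W.subtype hWY) (((n : H) • W).subtype hnWY)
  rw [Sylow.smul_subtype] at hy
  have hy' : (y : H) • W = (n : H) • W := Sylow.subtype_injective hy
  have hm : ((y : H)⁻¹ * n) ∈ normalizer ((W : Subgroup H) : Set H) := by
    have h1 : ((y : H)⁻¹ * n) • W = W := by rw [mul_smul, ← hy', inv_smul_smul]
    exact Sylow.smul_eq_iff_mem_normalizer.1 h1
  -- `y = c w`
  have hyY : (y : H) ∈ ((C₁ : Set H) * ((W : Subgroup H) : Set H)) := by
    rw [← coe_mul_of_right_le_normalizer_left C₁ (W : Subgroup H) hWC]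
    exact y.2
  obtain ⟨c, hc1, w, hw, hcw⟩ := hyY
  have hcw' : c * w = (y : H) := hcw
  refine ⟨c⁻¹ * n, K.mul_mem (K.inv_mem hc1.1) n.2, ?_, ?_⟩
  · have h1 : c⁻¹ * n = w * ((y : H)⁻¹ * n) := by rw [← hcw']; group
    rw [h1]
    exact mul_mem (le_normalizer hw) hm
  · intro h
    apply hnC
    have h1 : (n : H) = c * (c⁻¹ * n) := by group
    rw [h1]
    exact mul_mem hc1.2 h

/-- **(IIc2)** Cyclic Sylow intersection. -/
theorem le_of_cyclic [Finite H] {p : ℕ} {P S F : Subgroup H} (D : Dat p P S F) (hr : PRankLE p 2 H)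
    {K : Subgroup H} (hK : K.Normal) (hperf : ⁅K, K⁆ = K) (hpK : p ∣ Nat.card K) (W : Sylow p H) (hPW : P ≤ W)
    (hc : IsCyclic ↥(K ⊓ (W : Subgroup H) : Subgroup H)) : P ≤ K := by
  have hpf : Fact p.Prime := ⟨D.prime⟩
  obtain ⟨m, hmK, hmW, hmC⟩ := exists_mem_normalizer hK hperf hpK W hc
  set Q₀ : Subgroup H := K ⊓ (W : Subgroup H) with hQ₀
  have hQ₀p : IsPGroup p Q₀ := W.isPGroup'.to_le inf_le_right
  -- an element of prime power order
  have hex : ∃ (q : ℕ) (n : H), q.Prime ∧ q ≠ p ∧ n ∈ K ∧ n ∈ normalizer ((W : Subgroup H) : Set H) ∧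
      n ∉ centralizer (Q₀ : Set H) ∧ ∃ k : ℕ, n ^ q ^ k = 1 := by
    by_contra hcon
    push Not at hcon
    apply hmC
    refine Lib.CoprimeCommutator.induction_prime_power (K ⊓ normalizer ((W : Subgroup H) : Set H))
      (fun g => g ∈ centralizer (Q₀ : Set H)) (one_mem _) (fun a _ b _ ha hb => mul_mem ha hb) ?_ m ⟨hmK, hmW⟩
    intro q k hq a ha hak
    by_cases hqp : q = p
    · subst hqp
      -- `a ∈ W`
      have h1 : IsPGroup q (zpowers a) := by
        rw [IsPGroup.iff_card]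
        rw [Nat.card_zpowers]
        obtain ⟨j, -, hj⟩ := (Nat.dvd_prime_pow hq).1 (orderOf_dvd_of_pow_eq_one hak)
        exact ⟨j, hj⟩
      have h2 : zpowers a ≤ normalizer ((W : Subgroup H) : Set H) := (zpowers_le).2 ha.2
      have h3 := h1.inf_normalizer_sylow W
      have h4 : a ∈ (W : Subgroup H) := by
        have h5 : a ∈ zpowers a ⊓ normalizer (W : Set H) := ⟨mem_zpowers a, ha.2⟩
        rw [h3] at h5
        exact h5.2
      rw [mem_centralizer_iff]
      intro x hx
      exact congrArg Subtype.val (hc.isMulCommutative.is_comm.comm (⟨x, hx⟩ : Q₀) ⟨a, ha.1, h4⟩)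
    · by_contra hna
      exact hcon q a hq hqp ha.1 ha.2 hna k hak
  obtain ⟨q, n, hq, hqp, hnK, hnW, hnC, k, hnk⟩ := hex
  have hqf : Fact q.Prime := ⟨hq⟩
  have hnQ : n ∈ normalizer (Q₀ : Set H) := by
    apply mem_normalizer_of_conj
    intro y hy
    exact ⟨hK.conj_mem y hy.1 n, (mem_normalizer_iff.1 hnW y).1 hy.2⟩
  have hNp : IsPGroup q (zpowers n) := by
    rw [IsPGroup.iff_card, Nat.card_zpowers]
    obtain ⟨j, -, hj⟩ := (Nat.dvd_prime_pow hq).1 (orderOf_dvd_of_pow_eq_one hnk)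
    exact ⟨j, hj⟩
  -- an element of order `p` of `Q₀` not centralised by `n`
  have hx : ∃ x ∈ Q₀, x ^ p = 1 ∧ n * x * n⁻¹ ≠ x := by
    by_contra hcon
    push Not at hcon
    obtain ⟨E, hE, hEexp, -, hfaith⟩ := OddOrderLocal.OmegaCritical.exists_omega_critical D.odd hQ₀p
    have h1 : normalizerMonoidHom Q₀ ⟨n, hnQ⟩ = 1 := by
      apply hfaith
      · have h2 : orderOf (normalizerMonoidHom Q₀ ⟨n, hnQ⟩) ∣ orderOf (⟨n, hnQ⟩ : ↥(normalizer (Q₀ : Set H))) :=
          orderOf_map_dvd _ _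
        have h3 : (⟨n, hnQ⟩ : ↥(normalizer (Q₀ : Set H))) ^ q ^ k = 1 := Subtype.ext hnk
        exact Nat.Coprime.coprime_dvd_left (h2.trans (orderOf_dvd_of_pow_eq_one h3))
          (Nat.Coprime.pow_left k ((Nat.coprime_primes hq hpf.out).2 hqp))
      · intro x hx
        apply Subtype.ext
        exact hcon x x.2 (congrArg Subtype.val (hEexp x hx))
    apply hnC
    have h2 : (⟨n, hnQ⟩ : ↥(normalizer (Q₀ : Set H))) ∈ (normalizerMonoidHom Q₀).ker := h1
    rw [normalizerMonoidHom_ker] at h2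
    exact h2
  obtain ⟨x, hxQ, hxp, hnx⟩ := hx
  set C : Subgroup H := (W : Subgroup H) ⊓ centralizer ((zpowers n : Subgroup H) : Set H) with hC
  have hCp : IsPGroup p C := W.isPGroup'.to_le inf_le_left
  -- `C ∩ K = 1`
  have hCK : Disjoint C K := by
    rw [disjoint_iff]
    by_contra hne
    have h1 : IsPGroup p ↥(C ⊓ K : Subgroup H) := hCp.to_le inf_le_left
    have : Nontrivial ↥(C ⊓ K : Subgroup H) := (nontrivial_iff_ne_bot _).2 hne
    obtain ⟨j, hj0, hj⟩ := h1.nontrivial_iff_card.1 this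
    obtain ⟨y, hy⟩ := exists_prime_orderOf_dvd_card' (G := ↥(C ⊓ K : Subgroup H)) p
      (by rw [hj]; exact dvd_pow_self p hj0.ne')
    -- `x` is a power of `y`
    have hyQ : (y : H) ∈ Q₀ := ⟨y.2.2, y.2.1.1⟩
    have hyo : orderOf (⟨(y : H), hyQ⟩ : Q₀) = p := by
      rw [← hy, ← Subgroup.orderOf_coe, ← Subgroup.orderOf_coe]
    have h2 : (⟨x, hxQ⟩ : Q₀) ∈ zpowers (⟨(y : H), hyQ⟩ : Q₀) := by
      have h6 := RankOneCyclic.pRankLE_one_of_isCyclic (p := p) hc
      have hyp : (⟨(y : H), hyQ⟩ : Q₀) ^ p = 1 := by rw [← hyo]; exact pow_orderOf_eq_one _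
      have h7 : IsElementaryAbelian p (zpowers (⟨(y : H), hyQ⟩ : Q₀) ⊔ zpowers (⟨x, hxQ⟩ : Q₀) : Subgroup Q₀) :=
        elemAb_pair hyp (Subtype.ext hxp) (hc.isMulCommutative.is_comm.comm _ _)
      have h8 := pRankLE_def.mp h6 _ h7
      have h9 : zpowers (⟨(y : H), hyQ⟩ : Q₀) = zpowers (⟨(y : H), hyQ⟩ : Q₀) ⊔ zpowers (⟨x, hxQ⟩ : Q₀) := by
        apply eq_of_le_of_card_ge le_sup_left
        rw [Nat.card_zpowers, hyo]
        rwa [pow_one] at h8
      rw [h9]
      exact mem_sup_right (mem_zpowers _)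
    obtain ⟨i, hi⟩ := mem_zpowers_iff.1 h2
    have h3 : (y : H) ^ i = x := congrArg Subtype.val hi
    have h4 : n * (y : H) = y * n := (mem_centralizer_iff.1 y.2.1.2) n (mem_zpowers n)
    apply hnx
    rw [← h3]
    have h5 : Commute n ((y : H) ^ i) := (show Commute n (y : H) from h4).zpow_right i
    rw [h5.eq, mul_inv_cancel_right]
  -- `C` is cyclic
  have hKW : (K.subgroupOf (W : Subgroup H)).Normal := inferInstance
  obtain ⟨z, hz, hz1, hzp, hzW⟩ := exists_central W.isPGroup' hKW (inf_ne_bot W K hpK)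
  have hCc : IsCyclic C := by
    apply RankOneCyclic.isCyclic_of_pRankLE_one D.odd hCp
    intro A hA hAp
    set A' : Subgroup H := A.map C.subtype with hA'
    have hAe : IsElementaryAbelian p A := ⟨hA, hAp⟩
    have hA'e : IsElementaryAbelian p A' := OddOrderLocal.Rank.elemAb_map C.subtype hAe
    have hcard : Nat.card A' = Nat.card A :=
      (Nat.card_congr (equivMapOfInjective A _ C.subtype_injective).toEquiv).symm
    have h1 : Nat.card A' ≤ p ^ 2 := pRankLE_def.mp hr _ hA'e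
    rw [pow_one]
    by_contra hlt
    push Not at hlt
    obtain ⟨j, hj⟩ := IsPGroup.iff_card.1 (OddOrderLocal.Rank.elemAb_isPGroup hA'e)
    have hj2 : j = 2 := by
      rw [hj] at h1
      have h2 := (Nat.pow_le_pow_iff_right hpf.out.one_lt).1 h1
      rw [← hcard, hj] at hlt
      have h3 : ¬ j ≤ 1 := fun h => by
        have := Nat.pow_le_pow_right hpf.out.pos h
        rw [pow_one] at this
        omega
      omega
    rw [hj2] at hj
    have hA'C : A' ≤ C := map_subtype_le A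
    have h2 : z ∈ A' := RankTwoPrimeAut.mem_of_commute hr A' hA'e hj hzp (fun a ha => hzW a (hA'C ha).1)
    exact hz1 ((disjoint_def.1 hCK) (hA'C h2) hz.1)
  -- `W = Q₀ C`
  have hWC : (W : Subgroup H) ≤ C ⊔ K := by
    intro w hw
    obtain ⟨c, hc1, hc2⟩ := Lib.CoprimeCommutator.exists_fixed_in_coset q (zpowers n) Q₀ hNp ((zpowers_le).2 hnQ) (by
      intro hd
      obtain ⟨j, hj⟩ := IsPGroup.iff_card.1 hQ₀p
      rw [hj] at hd
      exact hqp ((Nat.prime_dvd_prime_iff_eq hq hpf.out).1 (hq.dvd_of_dvd_pow hd))) w (by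
      intro a ha
      have haK : a ∈ K := ((zpowers_le).2 hnK) ha
      have haW : a ∈ normalizer ((W : Subgroup H) : Set H) := ((zpowers_le).2 hnW) ha
      refine ⟨?_, ?_⟩
      · have h1 : w⁻¹ * (a * w * a⁻¹) = (w⁻¹ * a * w⁻¹⁻¹) * a⁻¹ := by group
        rw [h1]
        exact K.mul_mem (hK.conj_mem a haK w⁻¹) (K.inv_mem haK)
      · exact (W : Subgroup H).mul_mem ((W : Subgroup H).inv_mem hw) ((mem_normalizer_iff.1 haW w).1 hw))
    have hcW : c ∈ (W : Subgroup H) := by
      have h1 : c = w * (w⁻¹ * c) := by group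
      rw [h1]
      exact (W : Subgroup H).mul_mem hw hc2.2
    have h1 : w = c * (w⁻¹ * c)⁻¹ := by group
    rw [h1]
    exact mul_mem (mem_sup_left ⟨hcW, hc1⟩) (mem_sup_right (K.inv_mem hc2.1))
  -- the image in `H / K` is cyclic
  have hcyc : IsCyclic ↥((P.subgroupOf ⊤).map ((QuotientGroup.mk' K).comp (⊤ : Subgroup H).subtype)) := by
    have h1 : (P.subgroupOf ⊤).map ((QuotientGroup.mk' K).comp (⊤ : Subgroup H).subtype) ≤
        C.map (QuotientGroup.mk' K) := by
      rintro _ ⟨y, hy, rfl⟩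
      have h2 : (y : H) ∈ C ⊔ K := hWC (hPW hy)
      rw [← SetLike.mem_coe, mul_normal] at h2
      obtain ⟨c, hc1, e, he, hce⟩ := h2
      refine ⟨c, hc1, ?_⟩
      change ((c : H) : H ⧸ K) = ((y : H) : H ⧸ K)
      rw [QuotientGroup.eq]
      have : c⁻¹ * (y : H) = e := by rw [← hce]; group
      rw [this]
      exact he
    have h2 : IsCyclic ↥(C.map (QuotientGroup.mk' K)) :=
      isCyclic_of_surjective ((QuotientGroup.mk' K).subgroupMap C) ((QuotientGroup.mk' K).subgroupMap_surjective C)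
    exact isCyclic_of_le h1
  have h1 := Star.map_eq_one (N := ⊤) le_top le_top D.S_le D.star
    ((QuotientGroup.mk' K).comp (⊤ : Subgroup H).subtype) hcyc
  intro y hy
  exact (QuotientGroup.eq_one_iff y).1 (h1 y hy)

/-- **(IIc)** `P` lies in every perfect normal subgroup of order divisible by `p`. -/
theorem le_of_dvd [Finite H] {p : ℕ} {P S F : Subgroup H} (D : Dat p P S F) (hr : PRankLE p 2 H)
    {K : Subgroup H} (hK : K.Normal) (hperf : ⁅K, K⁆ = K) (hpK : p ∣ Nat.card K) : P ≤ K := by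
  have hpf : Fact p.Prime := ⟨D.prime⟩
  obtain ⟨W, hPW⟩ := D.pgroup.exists_le_sylow
  by_cases hc : IsCyclic ↥(K ⊓ (W : Subgroup H) : Subgroup H)
  · exact le_of_cyclic D hr hK hperf hpK W hPW hc
  · by_contra hPK
    refine false_of_noncyclic D hr hK (inf_le_F D hK hPK) W hPW fun hc1 => hc ?_
    have e : ↥(K.subgroupOf (W : Subgroup H)) ≃* ↥(K ⊓ (W : Subgroup H) : Subgroup H) := by
      have e1 := equivMapOfInjective (K.subgroupOf (W : Subgroup H)) (W : Subgroup H).subtype
        (W : Subgroup H).subtype_injective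
      rw [subgroupOf_map_subtype] at e1
      exact e1
    exact e.isCyclic.1 hc1

end Cfsg.Agent.QTSolv.Rank
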