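import Mathlib
import Cfsg.Agent.QTSolv.Coprime
import Cfsg.Agent.QTSolv.Rank
import Cfsg.Agent.QTComp.Three

/-!
# `𝒞`-components and `P`
-/

set_option autoImplicit false

open scoped commutatorElement Pointwise

namespace Cfsg.Agent.QTSolv.Comp

open Subgroup Cfsg
open Cfsg.Agent.OddOrderLocal
open Cfsg.Agent.QTComp
open Cfsg.Agent.QTSolv.Star Cfsg.Agent.QTSolv.Data

universe u

variable {H : Type u} [Group H]

theorem mem_of_index_two {N : Subgroup H} (hN : N.index = 2) {p : ℕ} (hp : p.Prime) (hp2 : p ≠ 2) {P : Subgroup H}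
    (hP : IsPGroup p P) : P ≤ N := by
  intro x hx
  obtain ⟨k, hk⟩ := hP ⟨x, hx⟩
  have hk' : x ^ p ^ k = 1 := congrArg Subtype.val hk
  have h1 : x * x ∈ N := mul_self_mem_of_index_two hN x
  have hodd : Odd (p ^ k) := (hp.odd_of_ne_two hp2).pow
  obtain ⟨m, hm⟩ := hodd
  rw [hm, pow_succ, pow_mul, pow_two] at hk'
  have h2 : x = ((x * x) ^ m)⁻¹ := by
    rw [eq_inv_iff_mul_eq_one]
    rw [← hk']
    exact ((Commute.refl x).mul_right (Commute.refl x)).pow_right m
  rw [h2]
  exact N.inv_mem (N.pow_mem h1 m)

/-- **(II)** `O_2(H) = 1`: `P` centralises the `𝒞`-component `K` or lies in its normal closure. -/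
theorem centralizer_or_le (hFT : Quat.FT.{0}) [Finite H] (hr : ∀ p : ℕ, p.Prime → p ≠ 2 → PRankLE p 2 H)
    (h2 : pCore 2 H = ⊥) {K : Subgroup H} (hK : K ∈ calC H) {p : ℕ} {P S F : Subgroup H} (D : Dat p P S F) :
    P ≤ centralizer (K : Set H) ∨ P ≤ normalClosure (K : Set H) := by
  have hp := D.prime
  have hpf : Fact p.Prime := ⟨hp⟩
  have hK2 : pCore 2 ↥K = ⊥ := by
    have h3 := Two.pCore_map_eq (G := H) hK.2.2.1
    rw [h2, inf_bot_eq, map_eq_bot_iff_of_injective _ K.subtype_injective] at h3
    exact h3
  by_cases hn : K.Normal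
  · have hnt : ∀ X : Subgroup H, X ≤ normalizer (K : Set H) := fun X => by
      rw [normalizer_eq_top_iff.2 hn]
      exact le_top
    by_cases hpK : p ∣ Nat.card K
    · right
      exact (Rank.le_of_dvd D (hr p hp D.odd) hn hK.2.1 hpK).trans le_normalClosure
    · left
      exact Coprime.le_centralizer_of_star hp D.odd D.pgroup (hnt P) (hnt S) D.S_le hpK hK2
        (fun r hrp hr2 => OddOrderLocal.Rank.pRankLE_subgroup (hr r hrp hr2)) D.star
  · -- two conjugates
    have h3 := (Three.three hFT hr hK hn).1
    have hg : ∃ g : H, K.map (MulAut.conj g).toMonoidHom ≠ K := by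
      by_contra hcon
      push Not at hcon
      apply hn
      constructor
      intro x hx g
      rw [← hcon g]
      exact ⟨x, hx, rfl⟩
    obtain ⟨g, hg⟩ := hg
    obtain ⟨hs, hcyc⟩ := Three.simple_of_ne hFT hr h2 hK hg
    set N : Subgroup H := normalizer (K : Set H) with hN
    have hNn : N.Normal := normal_of_index_eq_two h3
    have hPN : P ≤ N := mem_of_index_two h3 hp D.odd D.pgroup
    by_cases hpK : p ∣ Nat.card K
    · right
      set L : Subgroup H := K.map (MulAut.conj g).toMonoidHom with hL
      have hLC : L ∈ calC H := Basic.calC_conj g hK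
      have hcomm := Two.calC_commutator_eq_bot hFT hr h2 hK hLC hg.symm
      have hcent : L ≤ centralizer (K : Set H) := by
        rw [commutator_comm] at hcomm
        exact commutator_eq_bot_iff_le_centralizer.1 hcomm
      have hKcard : Nat.card L = Nat.card K :=
        (Nat.card_congr (equivMapOfInjective K (MulAut.conj g).toMonoidHom (MulAut.conj g).injective).toEquiv).symm
      have hNL : normalizer (L : Set H) = N := by
        have h4 : N ≤ normalizer (L : Set H) := by
          intro x hx
          apply mem_normalizer_of_conj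
          rintro _ ⟨y, hy, rfl⟩
          have h5 : g⁻¹ * x * g ∈ N := by
            have := hNn.conj_mem x hx g⁻¹
            rwa [inv_inv] at this
          refine ⟨(g⁻¹ * x * g) * y * (g⁻¹ * x * g)⁻¹, (mem_normalizer_iff.1 h5 y).1 hy, ?_⟩
          change g * ((g⁻¹ * x * g) * y * (g⁻¹ * x * g)⁻¹) * g⁻¹ = x * (g * y * g⁻¹) * x⁻¹
          group
        apply le_antisymm ?_ h4
        intro x hx
        have h5 : g⁻¹ * x * g ∈ N := by
          apply mem_normalizer_of_conj
          intro y hy
          have h6 : g * y * g⁻¹ ∈ L := ⟨y, hy, rfl⟩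
          obtain ⟨z, hz, hzx⟩ := (mem_normalizer_iff.1 hx _).1 h6
          have h7 : g * z * g⁻¹ = x * (g * y * g⁻¹) * x⁻¹ := hzx
          have h8 : g⁻¹ * x * g * y * (g⁻¹ * x * g)⁻¹ = z := by
            have : z = g⁻¹ * (g * z * g⁻¹) * g := by group
            rw [this, h7]
            group
          rw [h8]
          exact hz
        have h6 := hNn.conj_mem _ h5 g
        have h7 : g * (g⁻¹ * x * g) * g⁻¹ = x := by group
        rwa [h7] at h6
      have hLN : L ≤ N := hcent.trans (centralizer_le_normalizer _)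
      have hKN : K ≤ N := le_normalizer
      -- inside `N`
      have h4 : (K.subgroupOf N).Normal := (normal_subgroupOf_iff_le_normalizer hKN).2 le_rfl
      have h5 : (L.subgroupOf N).Normal := (normal_subgroupOf_iff_le_normalizer hLN).2 hNL.ge
      have hd : Disjoint K L := by
        rw [disjoint_iff, eq_bot_iff]
        rintro x ⟨hx1, hx2⟩
        have h6 : (⟨x, hx1⟩ : K) ∈ center K := by
          rw [mem_center_iff]
          intro y
          exact Subtype.ext ((mem_centralizer_iff.1 (hcent hx2)) y y.2)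
        have h7 : center K = ⊥ := Three.center_eq_bot_of_simple (isPerfect_iff.2 hK.2.1).commutator_eq_top
        rw [h7, mem_bot] at h6
        exact congrArg Subtype.val h6
      have h6 : Disjoint (K.subgroupOf N) (L.subgroupOf N) := by
        rw [disjoint_def]
        intro x hx1 hx2
        exact Subtype.ext (disjoint_def.1 hd hx1 hx2)
      have h7 : P.subgroupOf N ≤ K.subgroupOf N ⊔ L.subgroupOf N := by
        refine Rank.le_sup_of_commute (OddOrderLocal.Rank.pRankLE_subgroup (hr p hp D.odd)) h4 h5 h6 ?_ ?_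
          (D.pgroup.comap_of_injective N.subtype N.subtype_injective) ?_
        · rw [Nat.card_congr (subgroupOfEquivOfLe hKN).toEquiv]
          exact hpK
        · rw [Nat.card_congr (subgroupOfEquivOfLe hLN).toEquiv, hKcard]
          exact hpK
        · intro x hx
          exact Subtype.ext (D.pow_eq_one x hx)
      intro x hx
      have h8 : (⟨x, hPN hx⟩ : N) ∈ K.subgroupOf N ⊔ L.subgroupOf N := h7 hx
      rw [← subgroupOf_sup hKN hLN] at h8
      have h9 : x ∈ K ⊔ L := h8
      refine (sup_le le_normalClosure ?_ : K ⊔ L ≤ normalClosure (K : Set H)) h9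
      rintro _ ⟨y, hy, rfl⟩
      exact normalClosure_normal.conj_mem y (subset_normalClosure hy) g
    · left
      refine Coprime.le_centralizer_of_cyclic (S := S ⊓ N) hp D.pgroup hPN inf_le_right (inf_le_left.trans D.S_le)
        hpK hK2 (fun r R hrp hr2 => hcyc r R hrp hr2) (D.le_commutator inf_le_left ?_ ?_)
      · intro s hs
        apply mem_normalizer_of_conj
        intro y hy
        exact ⟨S.mul_mem (S.mul_mem hs hy.1) (S.inv_mem hs), hNn.conj_mem y hy.2 s⟩
      · intro s hs t ht hs1 ht1
        refine ⟨S.mul_mem hs ht, ?_⟩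
        have hs2 : s ∉ N := fun h => hs1 ⟨hs, h⟩
        have ht2 : t ∉ N := fun h => ht1 ⟨ht, h⟩
        exact (mul_mem_iff_of_index_two h3).2 (iff_of_false hs2 ht2)

end Cfsg.Agent.QTSolv.Comp
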