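import Mathlib
import Cfsg.Agent.Lib.GenFitting
import Cfsg.Agent.QTSolv.Coprime
import Cfsg.Agent.QTSolv.Rank

/-!
# `P ≤ O_p(H)`
-/

set_option autoImplicit false

open scoped commutatorElement Pointwise

namespace Cfsg.Agent.QTSolv.Fit

open Subgroup Cfsg
open Cfsg.Agent.OddOrderLocal
open Cfsg.Agent.QTSolv.Star Cfsg.Agent.QTSolv.Data
open Cfsg.Agent.Lib.Cores Cfsg.Agent.Lib.GenFitting

variable {H : Type*} [Group H]

/-- a group whose `p'`-elements (of prime power order) are central is nilpotent -/
theorem isNilpotent_of_central {C : Type*} [Group C] [Finite C] {p : ℕ} [hpf : Fact p.Prime]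
    (h : ∀ (r k : ℕ), r.Prime → r ≠ p → ∀ g : C, g ^ r ^ k = 1 → g ∈ center C) : Group.IsNilpotent C := by
  apply Group.of_quotient_center_nilpotent
  have hp : IsPGroup p (C ⧸ center C) := by
    intro x
    obtain ⟨g, rfl⟩ := QuotientGroup.mk_surjective x
    -- the `p'`-part
    obtain ⟨a, m, hm, ham⟩ := Nat.exists_eq_pow_mul_and_not_dvd (orderOf_pos g).ne' p hpf.out.ne_one
    refine ⟨a, ?_⟩
    have h1 : g ^ p ^ a ∈ center C := by
      have h2 : orderOf (g ^ p ^ a) ∣ m := by
        apply orderOf_dvd_of_pow_eq_one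
        rw [← pow_mul, ← ham, pow_orderOf_eq_one]
      have h3 : ∀ y ∈ zpowers (g ^ p ^ a), y ∈ center C := by
        refine Lib.CoprimeCommutator.induction_prime_power _ (fun y => y ∈ center C) (one_mem _)
          (fun a _ b _ ha hb => mul_mem ha hb) ?_
        intro r n hr y hy hyn
        by_cases hrp : r = p
        · subst hrp
          -- the order of `y` divides `m` and a power of `p`
          have h4 : orderOf y ∣ m := (orderOf_dvd_of_mem_zpowers hy).trans h2
          have h5 : orderOf y ∣ r ^ n := orderOf_dvd_of_pow_eq_one hyn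
          have h6 : orderOf y ∣ 1 := by
            have : Nat.Coprime (r ^ n) m := Nat.Coprime.pow_left n ((Nat.Prime.coprime_iff_not_dvd hr).2 hm)
            rw [← this]
            exact Nat.dvd_gcd h5 h4
          have h7 : y = 1 := orderOf_eq_one_iff.1 (Nat.dvd_one.1 h6)
          rw [h7]
          exact one_mem _
        · exact h r n hr hrp y hyn
      exact h3 _ (mem_zpowers _)
    rw [← QuotientGroup.mk_pow, QuotientGroup.eq_one_iff]
    exact h1
  exact hp.isNilpotent

/-- **(III)** `P ≤ O_p(H)`. -/
theorem le_pCore [Finite H] (hr : ∀ p : ℕ, p.Prime → p ≠ 2 → PRankLE p 2 H) (h2 : pCore 2 H = ⊥) {p : ℕ}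
    {P S F : Subgroup H} (D : Dat p P S F) (hcomp : ∀ K : Subgroup H, IsComponent K → P ≤ centralizer (K : Set H)) :
    P ≤ pCore p H := by
  have hp := D.prime
  have hpf : Fact p.Prime := ⟨hp⟩
  set Q : Subgroup H := pCore p H with hQ
  have hQn : Q.Normal := Lib.Cores.pCore_normal p
  have hQp : IsPGroup p Q := pCore_isPGroup p
  have hQr : PRankLE p 2 Q := OddOrderLocal.Rank.pRankLE_subgroup (hr p hp D.odd)
  obtain ⟨E, θ, hexp, hcard, hθ⟩ := RankTwoAction.exists_module D.odd hQp hQr
  set φ : H →* MulAut Q := MulAut.conjNormal with hφ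
  set f : H →* MulAut (Abelianization E) := θ.comp φ with hf
  have hPf : P ≤ f.ker := by
    have h1 := trivial_of_card_le hp D.odd (r := p) (N := ⊤) le_top le_top D.S_le D.star D.pgroup hexp hcard
      (f.comp (⊤ : Subgroup H).subtype)
    intro x hx
    exact h1 x hx
  -- the normal subgroup
  set C₁ : Subgroup H := f.ker ⊓ (centralizer (layer H : Set H) ⊓
    ⨅ r : {r : ℕ // r.Prime ∧ r ≠ p}, centralizer (pCore r H : Set H)) with hC₁
  have hlay : (layer H).Normal := Cfsg.Agent.SignalizersComponents.Components.layer_normal H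
  have hC₁n : C₁.Normal := by
    have h1 : ∀ r : {r : ℕ // r.Prime ∧ r ≠ p}, (centralizer (pCore r H : Set H)).Normal := fun r => by
      have : (pCore (r : ℕ) H).Normal := Lib.Cores.pCore_normal _
      infer_instance
    have h3 : (⨅ r : {r : ℕ // r.Prime ∧ r ≠ p}, centralizer (pCore r H : Set H)).Normal := normal_iInf_normal h1
    infer_instance
  have hPC : P ≤ C₁ := by
    refine le_inf hPf (le_inf ?_ ?_)
    · rw [le_centralizer_iff, layer]
      refine sSup_le fun K hK => ?_
      rw [← le_centralizer_iff]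
      exact hcomp K hK
    · refine le_iInf ?_
      rintro ⟨r, hrp, hne⟩
      have hrf : Fact r.Prime := ⟨hrp⟩
      have hn : (pCore r H).Normal := Lib.Cores.pCore_normal r
      by_cases hr2 : r = 2
      · subst hr2
        intro x _
        rw [mem_centralizer_iff]
        intro y hy
        have hy' : y ∈ pCore 2 H := hy
        rw [h2, mem_bot] at hy'
        rw [hy', one_mul, mul_one]
      · exact le_centralizer_of_rank hp D.odd hr2 (Ne.symm hne) (pCore_isPGroup r)
          (OddOrderLocal.Rank.pRankLE_subgroup (hr r hrp hr2)) D.pgroup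
          (by rw [normalizer_eq_top_iff.2 hn]; exact le_top) (by rw [normalizer_eq_top_iff.2 hn]; exact le_top)
          D.S_le D.star
  -- `p'`-elements of `C₁`
  have hkey : ∀ (r k : ℕ), r.Prime → r ≠ p → ∀ g ∈ C₁, g ^ r ^ k = 1 → ∀ x ∈ C₁, x * g = g * x := by
    intro r k hrp hne g hg hgk x hx
    have hrf : Fact r.Prime := ⟨hrp⟩
    -- `g` centralises `Q`
    have h1 : g ∈ centralizer (Q : Set H) := by
      have h3 : φ g = 1 := by
        apply hθ (φ g) ?_ (MonoidHom.mem_ker.1 hg.1)
        exact Nat.Coprime.coprime_dvd_left ((orderOf_map_dvd φ g).trans (orderOf_dvd_of_pow_eq_one hgk))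
          (Nat.Coprime.pow_left k ((Nat.coprime_primes hrp hp).2 hne))
      rw [mem_centralizer_iff]
      intro y hy
      have h4 : ((φ g ⟨y, hy⟩ : Q) : H) = y := by rw [h3]; rfl
      have h5 : ((φ g ⟨y, hy⟩ : Q) : H) = g * y * g⁻¹ := MulAut.conjNormal_apply g ⟨y, hy⟩
      rw [h5] at h4
      exact (mul_inv_eq_iff_eq_mul.1 h4).symm
    have h3 : g ∈ centralizer (generalizedFittingSubgroup H : Set H) := by
      have h4 : generalizedFittingSubgroup H ≤ centralizer ({g} : Set H) := by
        refine sup_le ?_ ?_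
        · intro y hy
          rw [mem_centralizer_singleton_iff]
          exact (mem_centralizer_iff.1 hg.2.1) y hy
        · rw [fittingSubgroup_eq_iSup_pCore]
          refine iSup_le fun q => ?_
          intro y hy
          rw [mem_centralizer_singleton_iff]
          by_cases hqp : (q : ℕ) = p
          · have hy' : y ∈ Q := by rw [hQ, ← hqp]; exact hy
            exact (mem_centralizer_iff.1 h1) y hy'
          · have h5 := (mem_iInf.1 hg.2.2) ⟨q, q.2, hqp⟩
            exact (mem_centralizer_iff.1 h5) y hy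
      rw [mem_centralizer_iff]
      intro y hy
      exact mem_centralizer_singleton_iff.1 (h4 hy)
    -- the abelian normal subgroup `Z = C(F*(H))`
    set Z : Subgroup H := centralizer (generalizedFittingSubgroup H : Set H) with hZ
    have hFn : (generalizedFittingSubgroup H).Normal := genFitting_normal
    have hZn : Z.Normal := inferInstance
    have hZc : IsMulCommutative Z := ⟨⟨fun a b => Subtype.ext
      ((mem_centralizer_iff.1 b.2) a (centralizer_genFitting_le a.2))⟩⟩
    have hZnil : Group.IsNilpotent Z := by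
      let _ : CommGroup Z := { (inferInstance : Group Z) with mul_comm := hZc.is_comm.comm }
      infer_instance
    have h4 : g ∈ pCore r H := mem_pCore_of_mem_nilpotent_normal hZn hZnil h3 hgk
    have h5 := (mem_iInf.1 hx.2.2) ⟨r, hrp, hne⟩
    exact ((mem_centralizer_iff.1 h5) g h4).symm
  have hnil : Group.IsNilpotent C₁ := by
    refine isNilpotent_of_central (p := p) ?_
    intro r k hrp hne g hgk
    rw [mem_center_iff]
    intro x
    exact Subtype.ext (hkey r k hrp hne g g.2 (congrArg Subtype.val hgk) x x.2)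
  intro x hx
  obtain ⟨k, hk⟩ := D.pgroup ⟨x, hx⟩
  have hk' : x ^ p ^ k = 1 := congrArg Subtype.val hk
  exact mem_pCore_of_mem_nilpotent_normal hC₁n hnil (hPC hx) hk'

end Cfsg.Agent.QTSolv.Fit
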