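import Mathlib
import Cfsg.Agent.SignalizersComponents.Components
import Cfsg.Agent.QTSolv.Comp
import Cfsg.Agent.QTSolv.Fit
import Cfsg.Agent.QTSolv.PCore

/-!
# `P` is normal in `H` when `O_2(H) = 1`
-/

set_option autoImplicit false

open scoped commutatorElement Pointwise

namespace Cfsg.Agent.QTSolv.Abs

open Subgroup Cfsg
open Cfsg.Agent.QTComp
open Cfsg.Agent.QTSolv.Data

universe u

variable {H : Type u} [Group H]

/-- components are `𝒞`-components -/
theorem calC_of_component {K : Subgroup H} (hK : IsComponent K) : K ∈ calC H := by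
  refine ⟨SignalizersComponents.Components.component_ne_bot hK,
    SignalizersComponents.Components.component_commutator_self hK, hK.1, ?_⟩
  rintro K' hlt ⟨h1, h2, h3⟩
  have h4 : (K'.subgroupOf K).IsSubnormal := h3.subgroupOf
  rcases SignalizersComponents.Components.quasisimple_subnormal hK.2 h4 with h5 | h5
  · rw [subgroupOf_eq_top] at h5
    exact absurd h5 (not_le_of_gt hlt)
  · apply h1
    rw [← h2, commutator_eq_bot_iff_le_centralizer]
    intro x hx
    rw [mem_centralizer_iff]
    intro y hy
    have h6 : (⟨x, hlt.le hx⟩ : K) ∈ center K := h5 hx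
    exact congrArg Subtype.val ((mem_center_iff.1 h6) ⟨y, hlt.le hy⟩)

/-- **Theorem B.** `O_2(H) = 1`, `m_r(H) ≤ 2` for odd `r`; if `P` lies in the normal closure of no component, then `P`
is normal in `H`. -/
theorem normal_of (hFT : Quat.FT.{0}) [Finite H] (hr : ∀ p : ℕ, p.Prime → p ≠ 2 → PRankLE p 2 H)
    (h2 : pCore 2 H = ⊥) {p : ℕ} {P S F : Subgroup H} (D : Dat p P S F)
    (hcl : ∀ K : Subgroup H, IsComponent K → ¬ P ≤ normalClosure (K : Set H)) : P.Normal := by
  refine PCore.normal D (hr p D.prime D.odd) (Fit.le_pCore hr h2 D fun K hK => ?_)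
  exact (Comp.centralizer_or_le hFT hr h2 (calC_of_component hK) D).resolve_right (hcl K hK)

/-- the normal closure of a component lies in `K T` -/
theorem normalClosure_le (hFT : Quat.FT.{0}) [Finite H] (hr : ∀ p : ℕ, p.Prime → p ≠ 2 → PRankLE p 2 H)
    {K : Subgroup H} (hK : K ∈ calC H) (T : Sylow 2 H) : normalClosure (K : Set H) ≤ K ⊔ (T : Subgroup H) := by
  have h2f : Fact (Nat.Prime 2) := ⟨Nat.prime_two⟩
  by_cases hn : K.Normal
  · rw [normalClosure_eq_self K]
    exact le_sup_left
  · have h3 := (Three.three hFT hr hK hn).1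
    set N : Subgroup H := normalizer (K : Set H) with hN
    have hTN : ¬ (T : Subgroup H) ≤ N := by
      intro h
      apply T.not_dvd_index
      have h4 := index_dvd_of_le h
      rwa [h3] at h4
    obtain ⟨t, ht, htN⟩ := SetLike.not_le_iff_exists.1 hTN
    rw [normalClosure, closure_le]
    intro y hy
    rw [Group.mem_conjugatesOfSet_iff] at hy
    obtain ⟨x, hx, hxy⟩ := hy
    obtain ⟨g, hg⟩ := isConj_iff.1 hxy
    by_cases hgN : g ∈ N
    · apply mem_sup_left
      rw [← hg]
      exact (mem_normalizer_iff.1 hgN x).1 hx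
    · -- `g = t n`
      have h4 : t⁻¹ * g ∈ N := by
        rw [mul_mem_iff_of_index_two h3]
        exact iff_of_false (fun h => htN (by have := N.inv_mem h; rwa [inv_inv] at this)) hgN
      have h5 := (mem_normalizer_iff.1 h4 x).1 hx
      have h6 : y = t * (t⁻¹ * g * x * (t⁻¹ * g)⁻¹) * t⁻¹ := by rw [← hg]; group
      rw [h6]
      exact mul_mem (mul_mem (mem_sup_right ht) (mem_sup_left h5)) (mem_sup_right ((T : Subgroup H).inv_mem ht))

end Cfsg.Agent.QTSolv.Abs
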