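import Mathlib
import Cfsg.Agent.Lib.FrattiniPGroup
import Cfsg.Agent.QTSolv.Data

/-!
# Frattini subgroups of the groups `E_{p²}` and of the nonabelian groups of order `p³`
-/

set_option autoImplicit false

open scoped commutatorElement Pointwise

namespace Cfsg.Agent.QTSolv.Frat

open Subgroup Cfsg

variable {V : Type*} [Group V] [Finite V] {p : ℕ} [hpf : Fact p.Prime]

theorem frattini_center (hc : Nat.card V = p ^ 3) (hn : ¬ IsMulCommutative V) :
    Nat.card (center V) = p ∧ frattini V = center V := by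
  have hp := hpf.out
  have hV : IsPGroup p V := IsPGroup.of_card hc
  have : Nontrivial V := by
    rw [← Finite.one_lt_card_iff_nontrivial, hc]
    exact Nat.one_lt_pow (by norm_num) hp.one_lt
  have hZ : Nontrivial (center V) := hV.center_nontrivial
  have hcyc : ¬ IsCyclic (V ⧸ center V) := by
    intro h
    apply hn
    exact (QuotientGroup.mk' (center V)).isMulCommutative_of_isCyclic_of_ker_le_center (by rw [QuotientGroup.ker_mk'])
  obtain ⟨k, hk3, hk⟩ := (Nat.dvd_prime_pow hp).1 (hc ▸ card_subgroup_dvd_card (center V))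
  have hk0 : k ≠ 0 := by
    intro h
    rw [h, pow_zero] at hk
    exact (Finite.one_lt_card_iff_nontrivial.2 hZ).ne' hk
  have hidx : Nat.card (V ⧸ center V) * Nat.card (center V) = p ^ 3 := by
    rw [← hc]
    exact (card_eq_card_quotient_mul_card_subgroup (center V)).symm
  have hquot : Nat.card (V ⧸ center V) = p ^ (3 - k) := by
    rw [hk] at hidx
    have h1 : p ^ 3 = p ^ (3 - k) * p ^ k := by rw [← pow_add]; congr 1; omega
    rw [h1] at hidx
    exact Nat.eq_of_mul_eq_mul_right (pow_pos hp.pos k) hidx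
  have hk1 : k = 1 := by
    by_contra hne
    apply hcyc
    apply isCyclic_of_card_dvd_prime (p := p)
    rw [hquot]
    calc p ^ (3 - k) ∣ p ^ 1 := pow_dvd_pow p (by omega)
      _ = p := pow_one p
  subst hk1
  rw [pow_one] at hk
  refine ⟨hk, ?_⟩
  have hquot2 : Nat.card (V ⧸ center V) = p ^ 2 := hquot
  have hcomm : IsMulCommutative (V ⧸ center V) := IsPGroup.isMulCommutative_of_card_eq_prime_sq hquot2
  have h1 : frattini V ≤ center V := by
    refine Lib.FrattiniPGroup.frattini_le (p := p) (center V) (fun x y => ?_) (fun x => ?_)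
    · rw [← QuotientGroup.eq_one_iff]
      have h3 : ((⁅x, y⁆ : V) : V ⧸ center V) = ⁅(x : V ⧸ center V), (y : V ⧸ center V)⁆ := rfl
      rw [h3, commutatorElement_eq_one_iff_mul_comm]
      exact hcomm.is_comm.comm _ _
    · rw [← QuotientGroup.eq_one_iff, QuotientGroup.mk_pow]
      have h3 : orderOf (x : V ⧸ center V) ∣ p ^ 2 := hquot2 ▸ orderOf_dvd_natCard _
      obtain ⟨j, hj2, hj⟩ := (Nat.dvd_prime_pow hp).1 h3
      have hj1 : j ≤ 1 := by
        by_contra hlt
        have hj2' : j = 2 := by omega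
        apply hcyc
        refine isCyclic_of_orderOf_eq_card (x : V ⧸ center V) ?_
        rw [hj, hj2', hquot2]
      apply orderOf_dvd_iff_pow_eq_one.1
      rw [hj]
      calc p ^ j ∣ p ^ 1 := pow_dvd_pow p hj1
        _ = p := pow_one p
  have h2 : frattini V ≠ ⊥ := by
    intro h
    apply hn
    refine ⟨⟨fun a b => ?_⟩⟩
    have h3 := Lib.FrattiniPGroup.commutator_mem_frattini hV a b
    rw [h, mem_bot, commutatorElement_eq_one_iff_mul_comm] at h3
    exact h3
  apply eq_of_le_of_card_ge h1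
  rw [hk]
  have h3 : Nat.card (frattini V) ∣ p := hk ▸ card_dvd_of_le h1
  rcases (Nat.dvd_prime hp).1 h3 with h4 | h4
  · exact absurd (card_eq_one.1 h4) h2
  · exact h4.ge

theorem frat (h : (Nat.card V = p ^ 2 ∧ IsMulCommutative V ∧ ∀ x : V, x ^ p = 1) ∨
    (Nat.card V = p ^ 3 ∧ ¬ IsMulCommutative V)) :
    IsPGroup p V ∧ Nat.card V = p ^ 2 * Nat.card (frattini V) ∧ Nat.card (frattini V) ∣ p ∧
      frattini V ≤ center V := by
  rcases h with ⟨h1, h2, h3⟩ | ⟨h1, h2⟩
  · have hV : IsPGroup p V := IsPGroup.of_card h1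
    have h4 : frattini V = ⊥ := by
      rw [← le_bot_iff]
      refine Lib.FrattiniPGroup.frattini_le (p := p) ⊥ (fun x y => ?_) (fun x => ?_)
      · rw [mem_bot, commutatorElement_eq_one_iff_mul_comm]
        exact h2.is_comm.comm _ _
      · rw [mem_bot]
        exact h3 x
    rw [h4]
    refine ⟨hV, by rw [card_bot, mul_one, h1], by rw [card_bot]; exact one_dvd _, bot_le⟩
  · obtain ⟨h3, h4⟩ := frattini_center h1 h2
    refine ⟨IsPGroup.of_card h1, ?_, ?_, h4.le⟩
    · rw [h4, h3, h1]; ring
    · rw [h4, h3]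

end Cfsg.Agent.QTSolv.Frat
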