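import Mathlib
import Cfsg.Prelude.Def_Quasithin
import Cfsg.Agent.Lib.Cores
import Cfsg.Agent.QTUniq.Local
import Cfsg.Agent.QTSolv.Frat

/-!
# The pair `(P, S)` of a member `X` of `Ξ(G, T)`
-/

set_option autoImplicit false

open scoped commutatorElement Pointwise

namespace Cfsg.Agent.QTSolv.Build

open Subgroup Cfsg
open Cfsg.Agent.QTSolv.Data
open Cfsg.Agent.QTUniq.Local

/-! ### Transport of `Dat` -/

section Transport

variable {A B : Type*} [Group A] [Group B]

theorem mem_normalizer_map {f : A →* B} {Y : Subgroup A} {s : A} (h : s ∈ normalizer (Y : Set A)) :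
    f s ∈ normalizer ((Y.map f : Subgroup B) : Set B) := by
  have key : ∀ t ∈ normalizer (Y : Set A), ∀ x ∈ Y.map f, f t * x * (f t)⁻¹ ∈ Y.map f := by
    rintro t ht _ ⟨y, hy, rfl⟩
    exact ⟨t * y * t⁻¹, (mem_normalizer_iff.1 ht y).1 hy, by rw [map_mul, map_mul, map_inv]⟩
  rw [mem_normalizer_iff]
  intro x
  refine ⟨key s h x, fun hx => ?_⟩
  have h1 := key s⁻¹ (inv_mem h) _ hx
  rw [map_inv] at h1
  have h2 : (f s)⁻¹ * (f s * x * (f s)⁻¹) * (f s)⁻¹⁻¹ = x := by group
  rwa [h2] at h1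

/-- pushing forward along a homomorphism injective on `P` -/
theorem map [Finite A] [Finite B] {p : ℕ} {P S F : Subgroup A} (D : Dat p P S F) (f : A →* B)
    (hinj : ∀ x ∈ P, f x = 1 → x = 1) : Dat p (P.map f) (S.map f) (F.map f) := by
  have hinj2 : ∀ x ∈ P, ∀ y ∈ P, f x = f y → x = y := by
    intro x hx y hy h
    have h1 := hinj (x * y⁻¹) (P.mul_mem hx (P.inv_mem hy)) (by rw [map_mul, map_inv, h, mul_inv_cancel])
    exact mul_inv_eq_one.1 h1
  have hcard : ∀ Y : Subgroup A, Y ≤ P → Nat.card (Y.map f) = Nat.card Y := by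
    intro Y hY
    refine (Nat.card_congr (Equiv.ofBijective (fun y : Y => (⟨f y, y, y.2, rfl⟩ : Y.map f)) ⟨?_, ?_⟩)).symm
    · intro a b hab
      exact Subtype.ext (hinj2 a (hY a.2) b (hY b.2) (congrArg Subtype.val hab))
    · rintro ⟨_, y, hy, rfl⟩
      exact ⟨⟨y, hy⟩, rfl⟩
  refine
    { prime := D.prime
      odd := D.odd
      pgroup := D.pgroup.map f
      S_le := ?_
      F_le := map_mono D.F_le
      F_norm := ?_
      irr := ?_
      card := by rw [hcard P le_rfl, hcard F D.F_le, D.card]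
      F_card := by rw [hcard F D.F_le]; exact D.F_card
      comm := ?_
      pow := ?_
      ngen := ?_
      cent := ?_ }
  · rintro _ ⟨s, hs, rfl⟩
    exact mem_normalizer_map (D.S_le hs)
  · rintro _ ⟨s, hs, rfl⟩
    exact mem_normalizer_map (D.F_norm hs)
  · intro Y hFY hYP hSY
    set Y₀ : Subgroup A := P ⊓ Y.comap f with hY₀
    have h1 : Y₀.map f = Y := by
      apply le_antisymm
      · rintro _ ⟨y, hy, rfl⟩
        exact hy.2
      · intro y hy
        obtain ⟨x, hx, rfl⟩ := hYP hy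
        exact ⟨x, ⟨hx, hy⟩, rfl⟩
    rcases D.irr Y₀ (le_inf D.F_le (fun x hx => hFY ⟨x, hx, rfl⟩)) inf_le_left (fun s hs => by
      apply mem_normalizer_of_conj
      intro y hy
      refine ⟨(mem_normalizer_iff.1 (D.S_le hs) y).1 hy.1, ?_⟩
      have h2 := (mem_normalizer_iff.1 (hSY ⟨s, hs, rfl⟩) (f y)).1 hy.2
      change f (s * y * s⁻¹) ∈ Y
      rw [map_mul, map_mul, map_inv]
      exact h2) with h | h
    · left
      rw [← h1, h]
    · right
      rw [← h1, h]
  · rw [← map_commutator]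
    exact map_mono D.comm
  · rintro _ ⟨x, hx, rfl⟩
    exact ⟨x ^ p, D.pow x hx, map_pow f x p⟩
  · intro Y hYP hY
    set Y₀ : Subgroup A := P ⊓ Y.comap f with hY₀
    have h1 : Y₀.map f = Y := by
      apply le_antisymm
      · rintro _ ⟨y, hy, rfl⟩
        exact hy.2
      · intro y hy
        obtain ⟨x, hx, rfl⟩ := hYP hy
        exact ⟨x, ⟨hx, hy⟩, rfl⟩
    rw [← h1, ← Subgroup.map_sup] at hY
    have h2 : Y₀ ⊔ F = P := by
      have hle : Y₀ ⊔ F ≤ P := sup_le inf_le_left D.F_le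
      apply eq_of_le_of_card_ge hle
      rw [← hcard _ hle, hY, hcard P le_rfl]
    rw [← h1, D.ngen Y₀ inf_le_left h2]
  · rintro _ ⟨x, hx, rfl⟩
    rw [mem_centralizer_iff]
    rintro _ ⟨y, hy, rfl⟩
    rw [← map_mul, ← map_mul, D.F_central hx hy]

/-- reflecting along an injective homomorphism -/
theorem reflect [Finite A] [Finite B] {p : ℕ} {P S F : Subgroup A} (f : A →* B) (hf : Function.Injective f)
    (D : Dat p (P.map f) (S.map f) (F.map f)) : Dat p P S F := by
  have hcard : ∀ Y : Subgroup A, Nat.card (Y.map f) = Nat.card Y := fun Y =>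
    (Nat.card_congr (equivMapOfInjective Y f hf).toEquiv).symm
  have hnorm : ∀ (s : A) (Y : Subgroup A), f s ∈ normalizer ((Y.map f : Subgroup B) : Set B) →
      s ∈ normalizer (Y : Set A) := by
    intro s Y h
    apply mem_normalizer_of_conj
    intro y hy
    obtain ⟨z, hz, hzy⟩ := (mem_normalizer_iff.1 h (f y)).1 ⟨y, hy, rfl⟩
    have h1 : z = s * y * s⁻¹ := by
      apply hf
      rw [hzy, map_mul, map_mul, map_inv]
    rwa [← h1]
  have hmem : ∀ (x : A) (Y : Subgroup A), f x ∈ Y.map f → x ∈ Y := by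
    rintro x Y ⟨y, hy, hyx⟩
    rwa [← hf hyx]
  refine
    { prime := D.prime
      odd := D.odd
      pgroup := D.pgroup.of_equiv (equivMapOfInjective P f hf).symm
      S_le := fun s hs => hnorm s P (D.S_le ⟨s, hs, rfl⟩)
      F_le := (map_le_map_iff_of_injective hf).1 D.F_le
      F_norm := fun s hs => hnorm s F (D.F_norm ⟨s, hs, rfl⟩)
      irr := ?_
      card := by rw [← hcard P, ← hcard F, D.card]
      F_card := by rw [← hcard F]; exact D.F_card
      comm := ?_
      pow := ?_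
      ngen := ?_
      cent := ?_ }
  · intro Y hFY hYP hSY
    rcases D.irr (Y.map f) (map_mono hFY) (map_mono hYP) (by
      rintro _ ⟨s, hs, rfl⟩
      exact mem_normalizer_map (hSY hs)) with h | h
    · left
      exact map_injective hf h
    · right
      exact map_injective hf h
  · rw [← map_le_map_iff_of_injective hf, map_commutator]
    exact D.comm
  · intro x hx
    apply hmem
    rw [map_pow]
    exact D.pow _ ⟨x, hx, rfl⟩
  · intro Y hYP hY
    apply map_injective hf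
    refine D.ngen _ (map_mono hYP) ?_
    rw [← Subgroup.map_sup, hY]
  · intro x hx
    rw [mem_centralizer_iff]
    intro y hy
    apply hf
    rw [map_mul, map_mul]
    exact (mem_centralizer_iff.1 (D.cent ⟨x, hx, rfl⟩)) _ ⟨y, hy, rfl⟩

end Transport

/-! ### The pair of a member of `Ξ(G, T)` -/

variable {G : Type*} [Group G] [Finite G]

theorem normalizer_le (X : Subgroup G) :
    normalizer (X : Set G) ≤ normalizer (((pCore 2 ↥X).map X.subtype : Subgroup G) : Set G) := by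
  intro g hg
  have hchar : (pCore 2 ↥X).Characteristic := Lib.Cores.pCore_characteristic 2
  apply mem_normalizer_of_conj
  rintro _ ⟨y, hy, rfl⟩
  have h1 := (characteristic_iff_le_comap.1 hchar) (normalizerMonoidHom X ⟨g, hg⟩) hy
  exact ⟨normalizerMonoidHom X ⟨g, hg⟩ y, h1, rfl⟩

theorem normalizer_le_twoPhi (X : Subgroup G) :
    normalizer (X : Set G) ≤ normalizer (twoPhiCore X : Set G) := by
  intro g hg
  set φ : MulAut X := normalizerMonoidHom X ⟨g, hg⟩ with hφ
  have hchar : (pCore 2 ↥X).Characteristic := Lib.Cores.pCore_characteristic 2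
  have hn : (pCore 2 ↥X).Normal := Lib.Cores.pCore_normal 2
  have hφO : (pCore 2 ↥X).map φ.toMonoidHom = pCore 2 ↥X := characteristic_iff_map_eq.1 hchar φ
  set ψ : (↥X ⧸ pCore 2 ↥X) ≃* (↥X ⧸ pCore 2 ↥X) := QuotientGroup.congr _ _ φ hφO with hψ
  have hΦ : (frattini (↥X ⧸ pCore 2 ↥X)).Characteristic := inferInstance
  apply mem_normalizer_of_conj
  rintro _ ⟨y, hy, rfl⟩
  refine ⟨φ y, ?_, rfl⟩
  have h1 := (characteristic_iff_le_comap.1 hΦ) ψ hy
  exact h1

/-- `O_2(X) ≤ T` for a `T`-invariant subgroup `X`. -/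
theorem pCore_le {T : Sylow 2 G} {X : Subgroup G} (hTX : (T : Subgroup G) ≤ normalizer (X : Set G)) :
    (pCore 2 ↥X).map X.subtype ≤ (T : Subgroup G) := by
  set O : Subgroup G := (pCore 2 ↥X).map X.subtype with hO
  have hXO : normalizer (X : Set G) ≤ normalizer (O : Set G) := normalizer_le X
  -- `O T` is a 2-group
  have hOp : IsPGroup 2 O := (Lib.Cores.pCore_isPGroup 2).map _
  have h1 : IsPGroup 2 ↥(O ⊔ (T : Subgroup G)) := by
    have := IsPGroup.to_sup_of_normal_left' hOp T.isPGroup' (hTX.trans hXO)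
    exact this
  have h2 := T.is_maximal' h1 le_sup_right
  rw [← h2]
  exact le_sup_left

theorem exists_dat {T : Sylow 2 G} {X : Subgroup G} (hX : X ∈ Xi (T : Subgroup G)) :
    ∃ (p : ℕ) (P S F : Subgroup G), Dat p P S F ∧ P ≤ X ∧ S ≤ (T : Subgroup G) ∧
      X ≤ (pCore 2 ↥X).map X.subtype ⊔ P := by
  obtain ⟨-, hTX, -, ⟨p, hp, hp2, hcase⟩, hirr⟩ := hX
  have hpf : Fact p.Prime := ⟨hp⟩
  have h2f : Fact (Nat.Prime 2) := ⟨Nat.prime_two⟩
  set O₂ : Subgroup X := pCore 2 ↥X with hO₂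
  have hO₂n : O₂.Normal := Lib.Cores.pCore_normal 2
  have hO₂p : IsPGroup 2 O₂ := Lib.Cores.pCore_isPGroup 2
  set O : Subgroup G := O₂.map X.subtype with hO
  have hOX : O ≤ X := map_subtype_le _
  have hOT : O ≤ (T : Subgroup G) := pCore_le hTX
  set π := QuotientGroup.mk' O₂ with hπ
  have hπs : Function.Surjective π := QuotientGroup.mk'_surjective O₂
  obtain ⟨hVp, hVcard, hVF, hVc⟩ := Frat.frat hcase
  set Φ : Subgroup (↥X ⧸ O₂) := frattini (↥X ⧸ O₂) with hΦ
  let P' : Sylow p X := default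
  set P : Subgroup G := (P' : Subgroup X).map X.subtype with hP
  have hPX : P ≤ X := map_subtype_le _
  have hPp : IsPGroup p P := P'.isPGroup'.map _
  -- `π` is bijective on `P'`
  have hdisj : Disjoint (P' : Subgroup X) O₂ := IsPGroup.disjoint_of_ne p 2 hp2 _ _ P'.isPGroup' hO₂p
  have hinj : ∀ x ∈ (P' : Subgroup X), ∀ y ∈ (P' : Subgroup X), π x = π y → x = y := by
    intro x hx y hy h
    have h1 : x * y⁻¹ ∈ O₂ := by
      rw [← QuotientGroup.eq_one_iff]
      change π (x * y⁻¹) = 1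
      rw [map_mul, map_inv, h, mul_inv_cancel]
    have h3 := (disjoint_def.1 hdisj) ((P' : Subgroup X).mul_mem hx ((P' : Subgroup X).inv_mem hy)) h1
    exact mul_inv_eq_one.1 h3
  have hsurj : ∀ v : ↥X ⧸ O₂, ∃ x ∈ (P' : Subgroup X), π x = v := by
    have h1 : (P' : Subgroup X).map π = ⊤ := by
      rw [← index_eq_one]
      have h3 : ((P' : Subgroup X).map π).index ∣ (P' : Subgroup X).index := index_map_dvd _ hπs
      obtain ⟨n, hn⟩ := hVp.index ((P' : Subgroup X).map π)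
      cases n with
      | zero => rw [hn, pow_zero]
      | succ n =>
        exfalso
        apply P'.not_dvd_index
        refine dvd_trans ?_ h3
        rw [hn]
        exact dvd_pow_self p (Nat.succ_ne_zero n)
    intro v
    have h3 : v ∈ (P' : Subgroup X).map π := by rw [h1]; exact mem_top v
    obtain ⟨x, hx, hxv⟩ := h3
    exact ⟨x, hx, hxv⟩
  -- `X = O P`
  have hXOP : X ≤ O ⊔ P := by
    intro x hx
    obtain ⟨y, hy, hyx⟩ := hsurj (π ⟨x, hx⟩)
    have h1 : (⟨x, hx⟩ : X) * y⁻¹ ∈ O₂ := by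
      rw [← QuotientGroup.eq_one_iff]
      change π (⟨x, hx⟩ * y⁻¹) = 1
      rw [map_mul, map_inv, hyx, mul_inv_cancel]
    have h3 : x = (x * (y : G)⁻¹) * y := by group
    rw [h3]
    exact mul_mem (mem_sup_left ⟨_, h1, rfl⟩) (mem_sup_right ⟨y, hy, rfl⟩)
  set F : Subgroup G := P ⊓ twoPhiCore X with hF
  have hmemPhi : ∀ x : G, x ∈ twoPhiCore X ↔ ∃ hx : x ∈ X, π ⟨x, hx⟩ ∈ Φ := by
    intro x
    constructor
    · rintro ⟨y, hy, rfl⟩
      exact ⟨y.2, hy⟩
    · rintro ⟨hx, h⟩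
      exact ⟨⟨x, hx⟩, h, rfl⟩
  have hmemF : ∀ x : G, x ∈ F ↔ ∃ hx : x ∈ P, π ⟨x, hPX hx⟩ ∈ Φ := by
    intro x
    constructor
    · rintro ⟨hx, h⟩
      obtain ⟨h1, h3⟩ := (hmemPhi x).1 h
      exact ⟨hx, h3⟩
    · rintro ⟨hx, h⟩
      exact ⟨hx, (hmemPhi x).2 ⟨hPX hx, h⟩⟩
  have hP'mem : ∀ x : G, ∀ hx : x ∈ P, (⟨x, hPX hx⟩ : X) ∈ (P' : Subgroup X) := by
    rintro _ ⟨y, hy, rfl⟩
    exact hy
  set S : Subgroup G := (T : Subgroup G) ⊓ normalizer (P : Set G) with hS
  have hTO : (T : Subgroup G) ≤ normalizer (O : Set G) := hTX.trans (normalizer_le X)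
  -- `T ≤ O S`
  have hTOS : ∀ t ∈ (T : Subgroup G), ∃ o ∈ O, o * t ∈ S := by
    intro t ht
    set φ : MulAut X := normalizerMonoidHom X ⟨t, hTX ht⟩ with hφ
    have hφa : ∀ k : X, ((φ k : X) : G) = t * k * t⁻¹ := fun k => rfl
    obtain ⟨x, hx⟩ := MulAction.exists_smul_eq X (φ • P') P'
    -- `x = y o`
    obtain ⟨y, hy, hyx⟩ := hsurj (π x)
    set o : X := y⁻¹ * x with ho
    have hoO : o ∈ O₂ := by
      rw [← QuotientGroup.eq_one_iff]
      change π (y⁻¹ * x) = 1
      rw [map_mul, map_inv, hyx, inv_mul_cancel]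
    refine ⟨(o : G), ⟨o, hoO, rfl⟩, (T : Subgroup G).mul_mem (hOT ⟨o, hoO, rfl⟩) ht, ?_⟩
    apply mem_normalizer_of_conj
    rintro _ ⟨z, hz, rfl⟩
    have h1 : MulAut.conj x (φ z) ∈ (P' : Subgroup X) := by
      have h3 : ((x • (φ • P') : Sylow p X) : Subgroup X) = P' := by rw [hx]
      rw [← h3, Sylow.coe_subgroup_smul]
      refine ⟨φ z, ?_, rfl⟩
      change _ ∈ ((φ • P' : Sylow p X) : Subgroup X)
      rw [Sylow.pointwise_smul_def]
      exact ⟨z, hz, rfl⟩
    have h3 : o * φ z * o⁻¹ ∈ (P' : Subgroup X) := by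
      have h4 : o * φ z * o⁻¹ = y⁻¹ * (MulAut.conj x (φ z)) * y⁻¹⁻¹ := by
        rw [ho, MulAut.conj_apply]; group
      rw [h4]
      exact (P' : Subgroup X).mul_mem ((P' : Subgroup X).mul_mem ((P' : Subgroup X).inv_mem hy) h1)
        ((P' : Subgroup X).inv_mem ((P' : Subgroup X).inv_mem hy))
    refine ⟨_, h3, ?_⟩
    change ((o * φ z * o⁻¹ : X) : G) = (o : G) * t * z * ((o : G) * t)⁻¹
    rw [Subgroup.coe_mul, Subgroup.coe_mul, hφa, Subgroup.coe_inv]
    group
  -- `P ∩ O = 1`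
  have hPO : ∀ x ∈ P, x ∈ O → x = 1 := by
    rintro _ ⟨y, hy, rfl⟩ ⟨z, hz, hzy⟩
    have h1 : z = y := Subtype.ext hzy
    rw [h1] at hz
    have h3 := (disjoint_def.1 hdisj) hy hz
    rw [h3]
    rfl
  -- elements of `P` with the same image are equal
  have hPinj : ∀ x (hx : x ∈ P) y (hy : y ∈ P), π ⟨x, hPX hx⟩ = π ⟨y, hPX hy⟩ → x = y := by
    intro x hx y hy h
    exact congrArg Subtype.val (hinj _ (hP'mem x hx) _ (hP'mem y hy) h)
  -- the bijection of `P` with the quotient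
  let ε : P → ↥X ⧸ O₂ := fun x => π ⟨x, hPX x.2⟩
  have hε : Function.Bijective ε := by
    constructor
    · intro x y h
      exact Subtype.ext (hPinj x x.2 y y.2 h)
    · intro v
      obtain ⟨x, hx, hxv⟩ := hsurj v
      exact ⟨⟨x, x, hx, rfl⟩, hxv⟩
  have hPcard : Nat.card P = Nat.card (↥X ⧸ O₂) := Nat.card_congr (Equiv.ofBijective ε hε)
  have hFcard : Nat.card F = Nat.card Φ := by
    refine Nat.card_congr (Equiv.ofBijective (fun x : F => (⟨π ⟨x, hPX x.2.1⟩, ((hmemF x).1 x.2).2⟩ : Φ)) ⟨?_, ?_⟩)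
    · intro x y h
      exact Subtype.ext (hPinj x x.2.1 y y.2.1 (congrArg Subtype.val h))
    · rintro ⟨v, hv⟩
      obtain ⟨x, hx, hxv⟩ := hsurj v
      refine ⟨⟨x, (hmemF x).2 ⟨⟨x, hx, rfl⟩, ?_⟩⟩, Subtype.ext hxv⟩
      change π x ∈ Φ
      rw [hxv]
      exact hv
  refine ⟨p, P, S, F, ?_, hPX, inf_le_left, hXOP⟩
  refine
    { prime := hp
      odd := hp2
      pgroup := hPp
      S_le := inf_le_right
      F_le := inf_le_left
      F_norm := ?_
      irr := ?_
      card := by rw [hPcard, hFcard, hVcard]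
      F_card := by rw [hFcard]; exact hVF
      comm := ?_
      pow := ?_
      ngen := ?_
      cent := ?_ }
  · intro s hs
    apply mem_normalizer_of_conj
    intro y hy
    exact ⟨(mem_normalizer_iff.1 hs.2 y).1 hy.1,
      (mem_normalizer_iff.1 (normalizer_le_twoPhi X (hTX hs.1)) y).1 hy.2⟩
  · intro Y hFY hYP hSY
    -- `T` normalises `O Y`
    have hSn : ∀ s ∈ S, s ∈ normalizer ((O ⊔ Y : Subgroup G) : Set G) := fun s hs =>
      mem_normalizer_sup (hTO hs.1) (hSY hs)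
    have hTn : (T : Subgroup G) ≤ normalizer ((O ⊔ Y : Subgroup G) : Set G) := by
      intro t ht
      obtain ⟨o, hoO, hot⟩ := hTOS t ht
      have h1 : t = o⁻¹ * (o * t) := by group
      rw [h1]
      exact mul_mem (le_normalizer (mem_sup_left (O.inv_mem hoO))) (hSn _ hot)
    have hXn : P ≤ normalizer (O : Set G) := by
      intro x hx
      exact (normalizer_le X) (le_normalizer (hPX hx))
    have hYn : Y ≤ normalizer (O : Set G) := hYP.trans hXn
    -- modular law
    have hmod : ∀ x ∈ P, x ∈ O ⊔ Y → x ∈ Y := by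
      intro x hx hxO
      rw [← SetLike.mem_coe, coe_mul_of_right_le_normalizer_left O Y hYn] at hxO
      obtain ⟨o, ho, y, hy, hoy⟩ := hxO
      have h1 : o * y = x := hoy
      have h3 : o = x * y⁻¹ := by rw [← h1]; group
      have h4 : o ∈ P := by rw [h3]; exact P.mul_mem hx (P.inv_mem (hYP hy))
      have h5 := hPO o h4 ho
      rw [h5, one_mul] at h1
      rwa [← h1]
    have hPhi : twoPhiCore X ≤ O ⊔ Y := by
      intro x hx
      obtain ⟨hxX, h1⟩ := (hmemPhi x).1 hx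
      obtain ⟨y, hy, hyx⟩ := hsurj (π ⟨x, hxX⟩)
      have h3 : (⟨x, hxX⟩ : X) * y⁻¹ ∈ O₂ := by
        rw [← QuotientGroup.eq_one_iff]
        change π (⟨x, hxX⟩ * y⁻¹) = 1
        rw [map_mul, map_inv, hyx, mul_inv_cancel]
      have h4 : (y : G) ∈ F := by
        refine (hmemF _).2 ⟨⟨y, hy, rfl⟩, ?_⟩
        change π y ∈ Φ
        rw [hyx]
        exact h1
      have h5 : x = (x * (y : G)⁻¹) * y := by group
      rw [h5]
      exact mul_mem (mem_sup_left ⟨_, h3, rfl⟩) (mem_sup_right (hFY h4))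
    rcases hirr (O ⊔ Y) hPhi (sup_le hOX (hYP.trans hPX)) hTn with h | h
    · left
      apply le_antisymm ?_ hFY
      intro y hy
      refine ⟨hYP hy, ?_⟩
      rw [← h]
      exact mem_sup_right hy
    · right
      apply le_antisymm hYP
      intro x hx
      apply hmod x hx
      rw [h]
      exact hPX hx
  · rw [commutator_le]
    intro x hx y hy
    refine (hmemF _).2 ⟨?_, ?_⟩
    · rw [commutatorElement_def]
      exact P.mul_mem (P.mul_mem (P.mul_mem hx hy) (P.inv_mem hx)) (P.inv_mem hy)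
    · have h1 := Lib.FrattiniPGroup.commutator_mem_frattini hVp (π ⟨x, hPX hx⟩) (π ⟨y, hPX hy⟩)
      rw [← map_commutatorElement] at h1
      exact h1
  · intro x hx
    refine (hmemF _).2 ⟨P.pow_mem hx p, ?_⟩
    have h1 := Lib.FrattiniPGroup.pow_mem_frattini hVp (π ⟨x, hPX hx⟩)
    rw [← map_pow] at h1
    exact h1
  · intro Y hYP hY
    have h1 : (Y.subgroupOf X).map π ⊔ Φ = ⊤ := by
      rw [eq_top_iff]
      intro v _
      obtain ⟨x, hx, hxv⟩ := hsurj v
      have hxP : (x : G) ∈ Y ⊔ F := by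
        rw [hY]
        exact ⟨x, hx, rfl⟩
      have h3 : x ∈ (Y ⊔ F).subgroupOf X := hxP
      rw [subgroupOf_sup (hYP.trans hPX) (inf_le_left.trans hPX : F ≤ X)] at h3
      have h4 : π x ∈ (Y.subgroupOf X ⊔ F.subgroupOf X).map π := ⟨x, h3, rfl⟩
      rw [Subgroup.map_sup, hxv] at h4
      refine (sup_le_sup_left ?_ _ : (Y.subgroupOf X).map π ⊔ (F.subgroupOf X).map π ≤ _) h4
      rintro _ ⟨y, hy, rfl⟩
      obtain ⟨hyP, h5⟩ := (hmemF _).1 hy
      exact h5
    have h3 := frattini_nongenerating h1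
    apply le_antisymm hYP
    intro x hx
    have h4 : π ⟨x, hPX hx⟩ ∈ (Y.subgroupOf X).map π := by rw [h3]; exact mem_top _
    obtain ⟨y, hy, hyx⟩ := h4
    have h5 : (y : G) = x := hPinj y (hYP hy) x hx hyx
    rw [← h5]
    exact hy
  · intro x hx
    rw [mem_centralizer_iff]
    intro y hy
    obtain ⟨hxP, h1⟩ := (hmemF x).1 hx
    have h3 := (mem_center_iff.1 (hVc h1)) (π ⟨y, hPX hy⟩)
    rw [← map_mul, ← map_mul] at h3
    exact hPinj _ (P.mul_mem hy hxP) _ (P.mul_mem hxP hy) h3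

end Cfsg.Agent.QTSolv.Build
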