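import Mathlib
import Cfsg.Prelude.Def_OddOrderLocal
import Cfsg.Agent.OddOrderLocal.Rank
import Cfsg.Agent.Transfer.ClassTwo
import Cfsg.Agent.S0126

/-!
# Subgroups of exponent `p` of a `p`-group of rank two

`R` a `p`-group, `p` odd, of rank at most two, `P ≤ R` of exponent `p` and order at least `p²`, such that no
characteristic subgroup `W` of `R` meets `P` in a proper subgroup with cyclic quotient.  Then `P` is characteristic in
`R`.
-/

set_option autoImplicit false
set_option linter.unusedSectionVars false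
set_option linter.unusedVariables false

open scoped commutatorElement

namespace Cfsg.Agent.QTSolv.RankTwoChar

open Subgroup Cfsg
open Cfsg.Agent.OddOrderLocal

variable {R : Type*} [Group R] {p : ℕ} [hpf : Fact p.Prime]

/-- elements of order `p` commuting with an elementary abelian subgroup of order `p²` lie in it -/
theorem mem_of_comm [Finite R] (hrk : PRankLE p 2 R) {A : Subgroup R} (hA : IsElementaryAbelian p A)
    (hAc : p ^ 2 ≤ Nat.card A) {x : R} (hx : x ^ p = 1) (hc : ∀ a ∈ A, a * x = x * a) : x ∈ A := by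
  have h1 : IsElementaryAbelian p (A ⊔ zpowers x) := by
    refine Rank.elemAb_sup hA (Rank.elemAb_zpowers hx) ?_
    rintro a ha _ ⟨k, rfl⟩
    exact (show Commute a x from hc a ha).zpow_right k
  have h2 := Rank.pRankLE_def.1 hrk _ h1
  have h3 : A = A ⊔ zpowers x := eq_of_le_of_card_ge le_sup_left (h2.trans hAc)
  rw [h3]
  exact mem_sup_right (mem_zpowers x)

variable (R p)

/-- the elements of order `p` in the centre -/
def zp : Subgroup R where
  carrier := {z | z ∈ center R ∧ z ^ p = 1}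
  mul_mem' := by
    rintro a b ⟨ha, ha'⟩ ⟨hb, hb'⟩
    refine ⟨mul_mem ha hb, ?_⟩
    rw [(show Commute a b from (mem_center_iff.1 hb a)).mul_pow, ha', hb', one_mul]
  one_mem' := ⟨one_mem _, one_pow _⟩
  inv_mem' := by
    rintro a ⟨ha, ha'⟩
    exact ⟨inv_mem ha, by rw [inv_pow, ha', inv_one]⟩

theorem mem_zp {z : R} : z ∈ zp R p ↔ z ∈ center R ∧ z ^ p = 1 := Iff.rfl

theorem zp_char : (zp R p).Characteristic := by
  rw [characteristic_iff_map_le]
  rintro φ _ ⟨z, ⟨hz, hz'⟩, rfl⟩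
  refine ⟨?_, ?_⟩
  · rw [mem_center_iff] at hz ⊢
    intro g
    have := congrArg φ (hz (φ.symm g))
    rw [map_mul, map_mul, MulEquiv.apply_symm_apply] at this
    exact this
  · change (φ z) ^ p = 1
    rw [← map_pow, hz', map_one]

theorem zp_elem : IsElementaryAbelian p (zp R p) :=
  Rank.elemAb_def.2 ⟨fun a _ b hb => mem_center_iff.1 hb.1 a, fun a ha => ha.2⟩

/-- the elements of order `p` in the second centre -/
def om (hp2 : p ≠ 2) : Subgroup R where
  carrier := {w | w ^ p = 1 ∧ ∀ x, ⁅w, x⁆ ∈ zp R p}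
  mul_mem' := by
    rintro a b ⟨ha, ha'⟩ ⟨hb, hb'⟩
    refine ⟨?_, fun x => ?_⟩
    · have h1 := hb' a
      rw [Cfsg.Agent.Transfer.ClassTwo.mul_pow_prime hpf.out hp2 (mem_center_iff.1 h1.1 a) (mem_center_iff.1 h1.1 b)
        h1.2, ha, hb, one_mul]
    · have h1 : ⁅a * b, x⁆ = ⁅b, x⁆ * ⁅a, x⁆ := by
        have h2 := mem_center_iff.1 (hb' x).1 a
        calc ⁅a * b, x⁆ = (a * ⁅b, x⁆) * a⁻¹ * ⁅a, x⁆ := by
              simp only [commutatorElement_def]; group
          _ = (⁅b, x⁆ * a) * a⁻¹ * ⁅a, x⁆ := by rw [h2]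
          _ = ⁅b, x⁆ * ⁅a, x⁆ := by group
      rw [h1]
      exact mul_mem (hb' x) (ha' x)
  one_mem' := ⟨one_pow _, fun x => by rw [commutatorElement_one_left]; exact one_mem _⟩
  inv_mem' := by
    rintro a ⟨ha, ha'⟩
    refine ⟨by rw [inv_pow, ha, inv_one], fun x => ?_⟩
    have h1 : ⁅a⁻¹, x⁆ = ⁅a, x⁆⁻¹ := by
      have h2 := mem_center_iff.1 (inv_mem (ha' x).1) a⁻¹
      calc ⁅a⁻¹, x⁆ = (a⁻¹ * ⁅a, x⁆⁻¹) * a := by
            simp only [commutatorElement_def]; group
        _ = (⁅a, x⁆⁻¹ * a⁻¹) * a := by rw [h2]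
        _ = ⁅a, x⁆⁻¹ := by group
    rw [h1]
    exact inv_mem (ha' x)

theorem mem_om {hp2 : p ≠ 2} {w : R} : w ∈ om R p hp2 ↔ w ^ p = 1 ∧ ∀ x, ⁅w, x⁆ ∈ zp R p := Iff.rfl

theorem om_char (hp2 : p ≠ 2) : (om R p hp2).Characteristic := by
  rw [characteristic_iff_map_le]
  rintro φ _ ⟨w, ⟨hw, hw'⟩, rfl⟩
  refine ⟨?_, fun x => ?_⟩
  · change (φ w) ^ p = 1
    rw [← map_pow, hw, map_one]
  · have h1 : ⁅φ w, x⁆ = φ ⁅w, φ.symm x⁆ := by
      rw [map_commutatorElement, MulEquiv.apply_symm_apply]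
    have h2 : φ ⁅w, φ.symm x⁆ ∈ (zp R p).map φ.toMonoidHom := ⟨_, hw' _, rfl⟩
    have h3 := (characteristic_iff_map_le.1 (zp_char R p)) φ h2
    change ⁅φ w, x⁆ ∈ zp R p
    rw [h1]
    exact h3

variable {R p}

theorem comm_mul {w x y : R} (h : ⁅w, y⁆ ∈ center R) : ⁅w, x * y⁆ = ⁅w, x⁆ * ⁅w, y⁆ := by
  have h2 := mem_center_iff.1 h x
  calc ⁅w, x * y⁆ = ⁅w, x⁆ * (x * ⁅w, y⁆) * x⁻¹ := by simp only [commutatorElement_def]; group
    _ = ⁅w, x⁆ * (⁅w, y⁆ * x) * x⁻¹ := by rw [h2]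
    _ = ⁅w, x⁆ * ⁅w, y⁆ := by group

theorem comm_zpow {w y : R} (h : ⁅w, y⁆ ∈ center R) (k : ℤ) : ⁅w, y ^ k⁆ = ⁅w, y⁆ ^ k := by
  have hn : ∀ n : ℕ, ⁅w, y ^ n⁆ = ⁅w, y⁆ ^ n := by
    intro n
    induction n with
    | zero => simp
    | succ n ih => rw [pow_succ, comm_mul h, ih, pow_succ]
  have hinv : ∀ z : R, ⁅w, z⁆ ∈ center R → ⁅w, z⁻¹⁆ = ⁅w, z⁆⁻¹ := by
    intro z hz
    have h1 : ⁅w, z⁻¹ * z⁆ = ⁅w, z⁻¹⁆ * ⁅w, z⁆ := comm_mul hz
    rw [inv_mul_cancel, commutatorElement_one_right] at h1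
    exact eq_inv_of_mul_eq_one_left h1.symm
  obtain ⟨n, rfl | rfl⟩ := k.eq_nat_or_neg
  · rw [zpow_natCast, zpow_natCast, hn]
  · rw [zpow_neg, zpow_neg, zpow_natCast, zpow_natCast, hinv, hn]
    rw [hn]
    exact pow_mem h n

/-- adjust `x` by a power of `y` to commute with `w` -/
theorem exists_adjust [Finite R] (hz : Nat.card (zp R p) = p) {w y : R} (hw : ∀ x, ⁅w, x⁆ ∈ zp R p) (hy : ⁅w, y⁆ ≠ 1) (x : R) :
    ∃ k : ℤ, ⁅w, x * y ^ k⁆ = 1 := by
  have h1 : zpowers (⟨⁅w, y⁆, hw y⟩ : ↥(zp R p)) = ⊤ := by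
    exact zpowers_eq_top_of_prime_card (p := p) hz (fun h => hy (congrArg Subtype.val h))
  have h2 : (⟨⁅w, x⁆, hw x⟩ : ↥(zp R p)) ∈ zpowers (⟨⁅w, y⁆, hw y⟩ : ↥(zp R p)) := by rw [h1]; exact mem_top _
  obtain ⟨k, hk⟩ := mem_zpowers_iff.1 h2
  have hk' : ⁅w, y⁆ ^ k = ⁅w, x⁆ := congrArg Subtype.val hk
  refine ⟨-k, ?_⟩
  have h3 : ⁅w, y ^ (-k)⁆ = ⁅w, y⁆ ^ (-k) := comm_zpow (hw y).1 _
  rw [comm_mul (hw _).1, h3, ← hk', zpow_neg, mul_inv_cancel]

/-- the Main result on rank two -/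
theorem characteristic [Finite R] (hp2 : p ≠ 2) (hR : IsPGroup p R) (hrk : PRankLE p 2 R) {P : Subgroup R}
    (hexp : ∀ x ∈ P, x ^ p = 1) (hcard : p ^ 2 ≤ Nat.card P)
    (hstar : ∀ W : Subgroup R, W.Characteristic → ∀ g ∈ P, P ≤ W ⊔ zpowers g → P ≤ W) : P.Characteristic := by
  have hpp : p.Prime := hpf.out
  have hel : ∀ B : Subgroup R, IsElementaryAbelian p B → Nat.card B ≤ p ^ 2 := Rank.pRankLE_def.1 hrk
  -- `R` is not cyclic
  have hnc : ¬ IsCyclic R := by
    intro hc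
    obtain ⟨g, hg⟩ := (inferInstance : IsCyclic P).exists_generator
    have h1 : Nat.card P ≤ p := by
      have h2 : zpowers g = ⊤ := eq_top_iff.2 fun x _ => hg x
      rw [← card_top (G := P), ← h2, Nat.card_zpowers]
      refine orderOf_le_of_pow_eq_one hpp.pos ?_
      exact Subtype.ext (hexp _ g.2)
    have h2 : p ^ 2 ≤ p ^ 1 := by rw [pow_one]; exact hcard.trans h1
    have := (Nat.pow_le_pow_iff_right hpp.one_lt).1 h2
    omega
  by_cases hz2 : p ^ 2 ≤ Nat.card (zp R p)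
  · have h1 : P ≤ zp R p := fun x hx =>
      mem_of_comm hrk (zp_elem R p) hz2 (hexp x hx) (fun a ha => (mem_center_iff.1 ha.1 x).symm)
    have h2 : P = zp R p := eq_of_le_of_card_ge h1 ((hel _ (zp_elem R p)).trans hcard)
    rw [h2]
    exact zp_char R p
  have hnt : Nontrivial R := by
    by_contra h
    rw [not_nontrivial_iff_subsingleton] at h
    exact hnc inferInstance
  have hzc : Nat.card (zp R p) = p := by
    obtain ⟨n, hn⟩ := IsPGroup.iff_card.1 (hR.to_subgroup (zp R p))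
    have h1 : n < 2 := by
      rw [hn] at hz2
      exact (Nat.pow_lt_pow_iff_right hpp.one_lt).1 (not_le.1 hz2)
    have h2 : n ≠ 0 := by
      rintro rfl
      rw [pow_zero] at hn
      have hcn := hR.center_nontrivial
      have hpd : p ∣ Nat.card (center R) := by
        obtain ⟨m, hm⟩ := IsPGroup.iff_card.1 (hR.to_subgroup (center R))
        have : m ≠ 0 := by
          rintro rfl
          rw [pow_zero] at hm
          exact absurd hm (Finite.one_lt_card.ne')
        rw [hm]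
        exact dvd_pow_self p this
      obtain ⟨⟨z, hz⟩, ho⟩ := exists_prime_orderOf_dvd_card' p hpd
      have h3 : z ∈ zp R p := by
        refine ⟨hz, ?_⟩
        have := pow_orderOf_eq_one (⟨z, hz⟩ : center R)
        rw [ho] at this
        exact congrArg Subtype.val this
      have h4 := card_eq_one.1 hn
      rw [h4, mem_bot] at h3
      subst h3
      rw [show (⟨1, hz⟩ : center R) = 1 from rfl, orderOf_one] at ho
      exact hpp.one_lt.ne ho
    have h3 : n = 1 := by omega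
    rw [hn, h3, pow_one]
  obtain ⟨A, hAn, hA, hAc⟩ := Cfsg.Agent.S0126.result hp2 hR hnc
  have hAd := Rank.elemAb_def.1 hA
  -- `A ≤ om`
  have hzA : zp R p ≤ A := fun z hz =>
    mem_of_comm hrk hA hAc.ge hz.2 (fun a _ => mem_center_iff.1 hz.1 a)
  have hzn : (zp R p).Normal := by
    have := zp_char R p
    infer_instance
  obtain ⟨w, hwA, hwz, hwc⟩ : ∃ w ∈ A, w ∉ zp R p ∧ ∀ x, ⁅w, x⁆ ∈ zp R p := by
    have h1 : A.map (QuotientGroup.mk' (zp R p)) ≠ ⊥ := by
      intro h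
      rw [Subgroup.map_eq_bot_iff, QuotientGroup.ker_mk'] at h
      have h1 : Nat.card A ≤ Nat.card (zp R p) := card_le_of_le h
      rw [hAc, hzc] at h1
      have h2 : p ^ 2 ≤ p ^ 1 := by rw [pow_one]; exact h1
      have := (Nat.pow_le_pow_iff_right hpp.one_lt).1 h2
      omega
    have h2 : (A.map (QuotientGroup.mk' (zp R p))).Normal := hAn.map _ (QuotientGroup.mk'_surjective _)
    obtain ⟨_, ⟨w, hw, rfl⟩, hc, ho⟩ := Cfsg.Agent.Transfer.PGroupNormal.exists_mem_inf_center_orderOf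
      (hR.to_quotient (zp R p)) _ h1
    refine ⟨w, hw, ?_, ?_⟩
    · intro h3
      rw [(QuotientGroup.eq_one_iff w).2 h3 |> fun h => (show QuotientGroup.mk' (zp R p) w = 1 from h), orderOf_one] at ho
      exact hpp.one_lt.ne ho
    · intro x
      have h3 := mem_center_iff.1 hc (QuotientGroup.mk' (zp R p) x)
      have h4 : QuotientGroup.mk' (zp R p) ⁅w, x⁆ = 1 := by
        rw [map_commutatorElement, commutatorElement_eq_one_iff_mul_comm]
        exact h3.symm
      exact (QuotientGroup.eq_one_iff _).1 h4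
  have hAw : A = zp R p ⊔ zpowers w := by
    have h1 : zp R p ⊔ zpowers w ≤ A := sup_le hzA (zpowers_le.2 hwA)
    have h2 : p ^ 2 ≤ Nat.card (zp R p ⊔ zpowers w : Subgroup R) := by
      obtain ⟨n, hn⟩ := IsPGroup.iff_card.1 (hR.to_subgroup (zp R p ⊔ zpowers w))
      rw [hn]
      apply Nat.pow_le_pow_right hpp.pos
      by_contra h3
      push Not at h3
      have h4 : Nat.card (zp R p ⊔ zpowers w : Subgroup R) ≤ Nat.card (zp R p) := by
        rw [hn, hzc]
        calc p ^ n ≤ p ^ 1 := Nat.pow_le_pow_right hpp.pos (by omega)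
          _ = p := pow_one p
      have h5 : zp R p = zp R p ⊔ zpowers w := eq_of_le_of_card_ge le_sup_left h4
      apply hwz
      rw [h5]
      exact mem_sup_right (mem_zpowers w)
    exact (eq_of_le_of_card_ge h1 (hAc.le.trans h2)).symm
  have hcent : ∀ x, ⁅w, x⁆ = 1 → ∀ a ∈ A, a * x = x * a := by
    intro x hx
    have h1 : A ≤ centralizer ({x} : Set R) := by
      rw [hAw]
      refine sup_le (fun z hz => ?_) (zpowers_le.2 ?_)
      · exact mem_centralizer_singleton_iff.2 (mem_center_iff.1 hz.1 x).symm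
      · exact mem_centralizer_singleton_iff.2 (commutatorElement_eq_one_iff_mul_comm.1 hx)
    intro a ha
    exact mem_centralizer_singleton_iff.1 (h1 ha)
  have hom : A ≤ om R p hp2 := by
    rw [hAw]
    refine sup_le (fun z hz => ⟨hz.2, fun x => ?_⟩) (zpowers_le.2 ⟨hAd.2 w hwA, hwc⟩)
    rw [commutatorElement_eq_one_iff_mul_comm.2 (mem_center_iff.1 hz.1 x).symm]
    exact one_mem _
  by_cases hW : om R p hp2 ≤ A
  · -- first case
    have hAom : om R p hp2 = A := le_antisymm hW hom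
    have hAch : A.Characteristic := hAom ▸ om_char R p hp2
    have hCch : (centralizer (A : Set R)).Characteristic := inferInstance
    have h1 : P ≤ centralizer (A : Set R) := by
      by_contra hnot
      obtain ⟨y, hy, hyC⟩ := SetLike.not_le_iff_exists.1 hnot
      have hwy : ⁅w, y⁆ ≠ 1 := by
        intro h
        exact hyC (mem_centralizer_iff.2 fun a ha => hcent y h a ha)
      apply hnot
      refine hstar _ hCch y hy ?_
      intro x hx
      obtain ⟨k, hk⟩ := exists_adjust hzc hwc hwy x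
      have h2 : x * y ^ k ∈ centralizer (A : Set R) := mem_centralizer_iff.2 fun a ha => hcent _ hk a ha
      have h3 : x = (x * y ^ k) * y ^ (-k) := by group
      rw [h3]
      exact mul_mem (mem_sup_left h2) (mem_sup_right (zpow_mem (mem_zpowers y) _))
    have h2 : P ≤ A := fun x hx =>
      mem_of_comm hrk hA hAc.ge (hexp x hx) (fun a ha => mem_centralizer_iff.1 (h1 hx) a ha)
    have h3 : P = A := eq_of_le_of_card_ge h2 (hAc.le.trans hcard)
    rw [h3]
    exact hAch
  -- second case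
  obtain ⟨w', hw'om, hw'A⟩ := SetLike.not_le_iff_exists.1 hW
  have hww : ⁅w, w'⁆ ≠ 1 := by
    intro h
    exact hw'A (mem_of_comm hrk hA hAc.ge hw'om.1 (hcent w' h))
  have hww2 : ⁅w', w⁆ ≠ 1 := by
    intro h
    apply hww
    rw [commutatorElement_eq_one_iff_mul_comm] at h ⊢
    exact h.symm
  have hwom : w ∈ om R p hp2 := hom hwA
  have key : ∀ x : R, x ^ p = 1 → x ∈ A ⊔ zpowers w' := by
    intro x hx
    obtain ⟨k, hk⟩ := exists_adjust hzc hwc hww x
    obtain ⟨l, hl⟩ := exists_adjust hzc hw'om.2 hww2 (x * w' ^ k)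
    set c := x * w' ^ k * w ^ l with hc
    have h1 : ⁅w, c⁆ = 1 := by
      have h2 : ⁅w, w ^ l⁆ = 1 := commutatorElement_eq_one_iff_mul_comm.2 ((Commute.refl w).zpow_right l)
      rw [hc, comm_mul (hwc _).1, hk, h2, one_mul]
    have h2 : Commute w c := commutatorElement_eq_one_iff_mul_comm.1 h1
    have h3 : Commute w' c := commutatorElement_eq_one_iff_mul_comm.1 hl
    set v := w ^ (-l) * w' ^ (-k) with hv
    have h4 : x = c * v := by rw [hc, hv]; group
    have h5 : Commute c v := ((h2.zpow_left _).mul_left (h3.zpow_left _)).symm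
    have h6 : v ^ p = 1 :=
      (mul_mem (zpow_mem hwom (-l)) (zpow_mem hw'om (-k)) : v ∈ om R p hp2).1
    have h7 : c ^ p = 1 := by
      have := hx
      rw [h4, h5.mul_pow, h6, mul_one] at this
      exact this
    have h8 : c ∈ A := mem_of_comm hrk hA hAc.ge h7 (hcent c h1)
    rw [h4]
    refine mul_mem (mem_sup_left h8) (mul_mem (mem_sup_left (zpow_mem hwA _)) (mem_sup_right (zpow_mem (mem_zpowers w') _)))
  have hle : A ⊔ zpowers w' ≤ om R p hp2 := sup_le hom (zpowers_le.2 hw'om)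
  have hPW : P ≤ om R p hp2 := fun x hx => hle (key x (hexp x hx))
  have hWc : Nat.card (om R p hp2) ≤ p ^ 3 := by
    have h1 : om R p hp2 = A ⊔ zpowers w' := le_antisymm (fun x hx => key x hx.1) hle
    rw [h1]
    have h2 : Nat.card (A ⊔ zpowers w' : Subgroup R) = Nat.card A * A.relIndex (A ⊔ zpowers w') := by
      rw [← relIndex_bot_left, ← relIndex_bot_left, relIndex_mul_relIndex _ _ _ bot_le le_sup_left]
    have h3 : A.relIndex (A ⊔ zpowers w') ≤ p := by
      rw [relIndex_sup_left]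
      have h4 : A.relIndex (zpowers w') ∣ Nat.card (zpowers w') := relIndex_dvd_card _ _
      refine (Nat.le_of_dvd Nat.card_pos h4).trans ?_
      rw [Nat.card_zpowers]
      exact orderOf_le_of_pow_eq_one hpp.pos hw'om.1
    rw [h2, hAc, pow_succ p 2]
    exact Nat.mul_le_mul_left _ h3
  by_cases hP3 : p ^ 3 ≤ Nat.card P
  · have h1 : P = om R p hp2 := eq_of_le_of_card_ge hPW (hWc.trans hP3)
    rw [h1]
    exact om_char R p hp2
  exfalso
  have hP2 : Nat.card P = p ^ 2 := by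
    obtain ⟨n, hn⟩ := IsPGroup.iff_card.1 (hR.to_subgroup P)
    rw [hn] at hcard hP3 ⊢
    have h1 := (Nat.pow_le_pow_iff_right hpp.one_lt).1 hcard
    have h2 := (Nat.pow_lt_pow_iff_right hpp.one_lt).1 (not_le.1 hP3)
    congr 1
    omega
  have hPel : IsElementaryAbelian p P := ⟨IsPGroup.isMulCommutative_of_card_eq_prime_sq hP2, hexp⟩
  have hzP : zp R p ≤ P := fun z hz =>
    mem_of_comm hrk hPel hP2.ge hz.2 (fun a _ => mem_center_iff.1 hz.1 a)
  obtain ⟨g, hg, hgz⟩ : ∃ g ∈ P, g ∉ zp R p := by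
    by_contra h
    push Not at h
    have h1 : Nat.card P ≤ Nat.card (zp R p) := card_le_of_le h
    rw [hP2, hzc] at h1
    have h2 : p ^ 2 ≤ p ^ 1 := by rw [pow_one]; exact h1
    have := (Nat.pow_le_pow_iff_right hpp.one_lt).1 h2
    omega
  have h1 : P = zp R p ⊔ zpowers g := by
    have h1 : zp R p ⊔ zpowers g ≤ P := sup_le hzP (zpowers_le.2 hg)
    have h2 : p ^ 2 ≤ Nat.card (zp R p ⊔ zpowers g : Subgroup R) := by
      obtain ⟨n, hn⟩ := IsPGroup.iff_card.1 (hR.to_subgroup (zp R p ⊔ zpowers g))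
      rw [hn]
      apply Nat.pow_le_pow_right hpp.pos
      by_contra h3
      push Not at h3
      have h4 : Nat.card (zp R p ⊔ zpowers g : Subgroup R) ≤ Nat.card (zp R p) := by
        rw [hn, hzc]
        calc p ^ n ≤ p ^ 1 := Nat.pow_le_pow_right hpp.pos (by omega)
          _ = p := pow_one p
      have h5 : zp R p = zp R p ⊔ zpowers g := eq_of_le_of_card_ge le_sup_left h4
      apply hgz
      rw [h5]
      exact mem_sup_right (mem_zpowers g)
    exact (eq_of_le_of_card_ge h1 (hP2.le.trans h2)).symm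
  exact hgz (hstar _ (zp_char R p) g hg h1.le hg)

end Cfsg.Agent.QTSolv.RankTwoChar
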