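import Mathlib
import Cfsg.Prelude.Def_OddOrderLocal
import Cfsg.Agent.Lib.Cores
import Cfsg.Agent.Lib.GenFitting
import Cfsg.Agent.TwoFusion.FStarControl
import Cfsg.Agent.SignalizersComponents.Components
import Cfsg.Agent.OddOrderLocal.RankTwoAction
import Cfsg.Agent.J2Type.ExtCube
import Cfsg.Agent.QTSolv.Star
import Cfsg.Agent.QTSolv.RankTwoChar

/-!
# The last step: `P` centralising the layer is normal

`H` finite, `O_2(H) = 1`, `m_r(H) ≤ 2` for odd primes `r`; `P` a `p`-subgroup, elementary abelian of order `p²` or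
nonabelian of order `p³`, normalised by `S`, with `Star P S`.  If `P` centralises the layer of `H` then `P` is normal.
-/

set_option autoImplicit false
set_option linter.unusedSectionVars false
set_option linter.unusedVariables false

open scoped commutatorElement

namespace Cfsg.Agent.QTSolv.Last

open Subgroup Cfsg
open Cfsg.Agent.OddOrderLocal
open Cfsg.Agent.QTSolv.Star

variable {H : Type*} [Group H] [Finite H]

/-- `P` lies in `O_p(H)`. -/
theorem le_pCore_of {p : ℕ} [hpf : Fact p.Prime] {P : Subgroup H} (hP : IsPGroup p P)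
    (hlay : P ≤ centralizer (layer H : Set H))
    (hr : ∀ r : ℕ, r.Prime → r ≠ p → P ≤ centralizer (pCore r H : Set H))
    {A : Type*} [Group A] (θ : H →* A) (hθP : ∀ x ∈ P, θ x = 1)
    (hθ : ∀ x : H, (orderOf x).Coprime p → θ x = 1 → x ∈ centralizer (pCore p H : Set H)) : P ≤ pCore p H := by
  set N : Subgroup H := centralizer (layer H : Set H) ⊓
    (⨅ r : {r : ℕ // r.Prime ∧ r ≠ p}, centralizer (pCore (r : ℕ) H : Set H)) ⊓ θ.ker with hN
  have hNn : N.Normal := by
    have h1 : (layer H).Normal := SignalizersComponents.Components.layer_normal H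
    have h2 : (centralizer (layer H : Set H)).Normal := inferInstance
    have h3 : (⨅ r : {r : ℕ // r.Prime ∧ r ≠ p}, centralizer (pCore (r : ℕ) H : Set H)).Normal := by
      apply normal_iInf_normal
      intro r
      have := Lib.Cores.pCore_normal (G := H) (r : ℕ)
      infer_instance
    infer_instance
  have hPN : P ≤ N := by
    refine le_inf (le_inf hlay (le_iInf fun r => hr r r.2.1 r.2.2)) ?_
    intro x hx
    exact hθP x hx
  -- the `p'`-elements of `N` are central in `N`
  have hcent : ∀ x ∈ N, (orderOf x).Coprime p → ∀ y ∈ N, x * y = y * x := by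
    rintro x ⟨⟨hx1, hx2⟩, hx3⟩ hxp y ⟨⟨hy1, hy2⟩, hy3⟩
    have hx4 : x ∈ centralizer (pCore p H : Set H) := hθ x hxp hx3
    have hx5 : x ∈ centralizer (generalizedFittingSubgroup H : Set H) := by
      rw [← zpowers_le, le_centralizer_iff, generalizedFittingSubgroup]
      refine sup_le ?_ ?_
      · rw [← le_centralizer_iff, zpowers_le]
        exact hx1
      · rw [Lib.Cores.fittingSubgroup_eq_iSup_pCore]
        refine iSup_le fun r => ?_
        rw [← le_centralizer_iff, zpowers_le]
        by_cases hrp : (r : ℕ) = p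
        · rw [hrp]
          exact hx4
        · exact (mem_iInf.1 hx2) ⟨r, r.2, hrp⟩
    have hxF : x ∈ fittingSubgroup H := TwoFusion.FStarControl.centralizer_genFitting_le_fitting hx5
    -- `y` centralises `x`
    have key : (centralizer ({y} : Set H)).subgroupOf (zpowers x) = ⊤ := by
      refine Lib.Cores.eq_top_of_sylow_le fun r hrf => ?_
      obtain ⟨Q⟩ := (inferInstance : Nonempty (Sylow r (zpowers x)))
      refine ⟨Q, ?_⟩
      intro z hz
      obtain ⟨k, hk⟩ := Q.isPGroup' ⟨z, hz⟩
      have hk' : (z : H) ^ r ^ k = 1 := by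
        have := congrArg (fun t : Q => ((t : ↥(zpowers x)) : H)) hk
        simpa using this
      have hzF : (z : H) ∈ fittingSubgroup H := (zpowers_le.2 hxF) z.2
      have hzr := Lib.GenFitting.mem_pCore_of_mem_fitting (p := r) hzF hk'
      rw [mem_subgroupOf, mem_centralizer_singleton_iff]
      by_cases hrp : r = p
      · subst hrp
        have h1 : orderOf (z : H) ∣ r ^ k := orderOf_dvd_of_pow_eq_one hk'
        have h2 : orderOf (z : H) ∣ orderOf x := by
          have h3 := orderOf_dvd_natCard z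
          rw [Nat.card_zpowers] at h3
          rwa [orderOf_coe]
        have h4 : orderOf (z : H) = 1 := by
          have h5 : Nat.Coprime (orderOf (z : H)) (r ^ k) := (Nat.Coprime.coprime_dvd_left h2 hxp).pow_right k
          exact Nat.eq_one_of_dvd_coprimes h5 (dvd_refl _) h1
        rw [orderOf_eq_one_iff.1 h4, one_mul, mul_one]
      · have h1 := (mem_iInf.1 hy2) ⟨r, hrf.out, hrp⟩
        exact (mem_centralizer_iff.1 h1) _ hzr
    have h1 : x ∈ centralizer ({y} : Set H) := by
      rw [subgroupOf_eq_top] at key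
      exact key (mem_zpowers x)
    exact mem_centralizer_singleton_iff.1 h1
  -- `N` is nilpotent
  have hnil : Group.IsNilpotent N := by
    apply Group.of_quotient_center_nilpotent
    apply IsPGroup.isNilpotent (p := p)
    intro q
    obtain ⟨g, rfl⟩ := QuotientGroup.mk_surjective q
    obtain ⟨k, m, hm, hkm⟩ := Nat.exists_eq_pow_mul_and_not_dvd (orderOf_pos g).ne' p hpf.out.ne_one
    refine ⟨k, ?_⟩
    rw [← QuotientGroup.mk_pow, QuotientGroup.eq_one_iff, mem_center_iff]
    intro y
    apply Subtype.ext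
    refine (hcent _ (g ^ p ^ k).2 ?_ y y.2).symm
    have h1 : orderOf (((g ^ p ^ k : ↥N)) : H) = m := by
      rw [orderOf_coe, orderOf_pow_of_dvd (pow_ne_zero _ hpf.out.ne_zero) ⟨m, hkm⟩, hkm]
      exact Nat.mul_div_cancel_left m (pow_pos hpf.out.pos k)
    rw [h1]
    exact ((Nat.Prime.coprime_iff_not_dvd hpf.out).2 hm).symm
  intro x hx
  obtain ⟨k, hk⟩ := hP ⟨x, hx⟩
  have hk' : x ^ p ^ k = 1 := by
    have := congrArg Subtype.val hk
    simpa using this
  exact Lib.GenFitting.mem_pCore_of_mem_nilpotent_normal hNn hnil (hPN hx) hk'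

/-- `P` is of exponent `p`. -/
theorem pow_eq_one_of_star {p : ℕ} [hpf : Fact p.Prime] (hp2 : p ≠ 2) {P S : Subgroup H}
    (hc : Nat.card P = p ^ 3) (hnc : ¬ IsMulCommutative P) (hSP : S ≤ normalizer (P : Set H)) (h : Star P S) :
    ∀ x ∈ P, x ^ p = 1 := by
  have hne : ∃ x y : P, x * y ≠ y * x := by
    by_contra hcon
    push Not at hcon
    exact hnc ⟨⟨hcon⟩⟩
  obtain ⟨⟨hPp, hfr, hcom⟩, hZ⟩ := J2Type.ExtCube.isExtraspecial_of_card_cube hc hne
  have hcc : ∀ x y : P, ⁅x, y⁆ ∈ center P := fun x y => by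
    rw [← hcom, _root_.commutator_def]
    exact commutator_mem_commutator (mem_top _) (mem_top _)
  have hcp : ∀ x y : P, ⁅x, y⁆ ^ p = 1 := by
    intro x y
    have h1 := pow_card_eq_one' (x := (⟨⁅x, y⁆, hcc x y⟩ : center P))
    rw [hZ] at h1
    exact congrArg Subtype.val h1
  have hpow : ∀ x : P, x ^ p ∈ center P := by
    intro x
    rw [← hfr]
    exact Lib.FrattiniPGroup.pow_mem_frattini hPp x
  have hmul : ∀ x y : P, (x * y) ^ p = x ^ p * y ^ p := fun x y =>
    Transfer.ClassTwo.mul_pow_prime hpf.out hp2 (mem_center_iff.1 (hcc y x) x) (mem_center_iff.1 (hcc y x) y) (hcp y x)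
  let P₀ : Subgroup H :=
    { carrier := {x | x ∈ P ∧ x ^ p = 1}
      mul_mem' := by
        rintro a b ⟨ha, ha'⟩ ⟨hb, hb'⟩
        refine ⟨mul_mem ha hb, ?_⟩
        have h1 := congrArg Subtype.val (hmul ⟨a, ha⟩ ⟨b, hb⟩)
        have h2 : (a * b) ^ p = a ^ p * b ^ p := h1
        rw [h2, ha', hb', one_mul]
      one_mem' := ⟨one_mem _, one_pow _⟩
      inv_mem' := by
        rintro a ⟨ha, ha'⟩
        exact ⟨inv_mem ha, by rw [inv_pow, ha', inv_one]⟩ }
  have hinv : ∀ s ∈ normalizer (P : Set H), s ∈ normalizer (P₀ : Set H) := by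
    have key : ∀ s ∈ normalizer (P : Set H), ∀ x ∈ P₀, s * x * s⁻¹ ∈ P₀ := by
      rintro s hs x ⟨hx, hx'⟩
      refine ⟨(mem_normalizer_iff.1 hs x).1 hx, ?_⟩
      rw [conj_pow, hx', mul_one, mul_inv_cancel]
    intro s hs
    rw [mem_normalizer_iff]
    intro x
    refine ⟨key s hs x, fun hx => ?_⟩
    have h1 := key s⁻¹ (inv_mem hs) _ hx
    have h2 : s⁻¹ * (s * x * s⁻¹) * s⁻¹⁻¹ = x := by group
    rwa [h2] at h1
  by_contra hcon
  push Not at hcon
  obtain ⟨g, hg, hgp⟩ := hcon
  have h1 : P₀ = P := by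
    refine h P₀ (fun x hx => hx.1) (fun s hs => hinv s (le_normalizer hs)) (fun s hs => hinv s (hSP hs)) g hg ?_
    have h2 : zpowers (⟨(⟨g, hg⟩ : P) ^ p, hpow _⟩ : center P) = ⊤ := by
      refine zpowers_eq_top_of_prime_card (p := p) hZ ?_
      intro h3
      exact hgp (congrArg Subtype.val (congrArg Subtype.val h3))
    intro x hx
    have h3 : (⟨(⟨x, hx⟩ : P) ^ p, hpow _⟩ : center P) ∈ zpowers (⟨(⟨g, hg⟩ : P) ^ p, hpow _⟩ : center P) := by
      rw [h2]; exact mem_top _
    obtain ⟨k, hk⟩ := mem_zpowers_iff.1 h3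
    have hk' : ((⟨g, hg⟩ : P) ^ p) ^ k = (⟨x, hx⟩ : P) ^ p := congrArg Subtype.val hk
    have h4 : ((⟨x, hx⟩ : P) * (⟨g, hg⟩ : P) ^ (-k)) ^ p = 1 := by
      rw [hmul, ← hk', ← zpow_natCast, ← zpow_natCast, ← zpow_mul, ← zpow_mul, ← zpow_add]
      have : (p : ℤ) * k + -k * (p : ℤ) = 0 := by ring
      rw [this, zpow_zero]
    have h5 : x * g ^ (-k) ∈ P₀ := ⟨P.mul_mem hx (P.zpow_mem hg _), congrArg Subtype.val h4⟩
    have h6 : x = (x * g ^ (-k)) * g ^ k := by group
    rw [h6]
    exact mul_mem (mem_sup_left h5) (mem_sup_right (zpow_mem (mem_zpowers g) _))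
  have h2 : g ∈ P₀ := by rw [h1]; exact hg
  exact hgp h2.2

/-- **The last step.** -/
theorem normal_of_star {p : ℕ} (hp : p.Prime) (hp2 : p ≠ 2) {P S : Subgroup H} (h2 : pCore 2 H = ⊥)
    (hrk : ∀ r : ℕ, r.Prime → r ≠ 2 → PRankLE r 2 H)
    (hP : (Nat.card P = p ^ 2 ∧ ∀ x ∈ P, x ^ p = 1) ∨ (Nat.card P = p ^ 3 ∧ ¬ IsMulCommutative P))
    (hSP : S ≤ normalizer (P : Set H)) (h : Star P S) (hlay : P ≤ centralizer (layer H : Set H)) : P.Normal := by
  have hpf : Fact p.Prime := ⟨hp⟩
  have hexp : ∀ x ∈ P, x ^ p = 1 := by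
    rcases hP with ⟨-, h3⟩ | ⟨h3, h4⟩
    · exact h3
    · exact pow_eq_one_of_star hp2 h3 h4 hSP h
  have hcard : p ^ 2 ≤ Nat.card P := by
    rcases hP with ⟨h3, -⟩ | ⟨h3, -⟩
    · exact h3.ge
    · rw [h3]
      exact Nat.pow_le_pow_right hp.pos (by norm_num)
  have hPp : IsPGroup p P := fun x => ⟨1, by rw [pow_one]; exact Subtype.ext (hexp x x.2)⟩
  have hRn : ∀ r : ℕ, (pCore r H).Normal := fun r => Lib.Cores.pCore_normal r
  have hR : ∀ r : ℕ, IsPGroup r (pCore r H) := fun r => Lib.Cores.pCore_isPGroup r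
  have hle : P ≤ pCore p H := by
    obtain ⟨D, θ, hDexp, hDcard, hθ⟩ :=
      RankTwoAction.exists_module hp2 (hR p) (Rank.pRankLE_subgroup (hrk p hp hp2))
    have hn := hRn p
    refine le_pCore_of hPp hlay ?_ (θ.comp (MulAut.conjNormal (H := pCore p H))) ?_ ?_
    · intro r hr hrp
      by_cases hr2 : r = 2
      · subst hr2
        rw [h2]
        intro x _
        rw [mem_centralizer_iff]
        intro y hy
        rw [(show y = 1 from hy), one_mul, mul_one]
      · have hrf : Fact r.Prime := ⟨hr⟩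
        have hrn := hRn r
        refine le_centralizer_of_rank hp hp2 hr2 (Ne.symm hrp) (hR r) (Rank.pRankLE_subgroup (hrk r hr hr2)) hPp
          ?_ ?_ hSP h
        · rw [normalizer_eq_top]; exact le_top
        · rw [normalizer_eq_top]; exact le_top
    · intro x hx
      exact trivial_of_card_le hp hp2 (r := p) (N := ⊤) le_top le_top hSP h hPp hDexp hDcard
        ((θ.comp (MulAut.conjNormal (H := pCore p H))).comp (Subgroup.subtype ⊤)) x hx
    · intro x hx hx1
      apply RankTwoAction.mem_centralizer_of_conjNormal_eq_one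
      apply hθ _ _ hx1
      exact Nat.Coprime.coprime_dvd_left (orderOf_map_dvd _ x) hx
  set R := pCore p H with hRdef
  have hch : (P.subgroupOf R).Characteristic := by
    refine RankTwoChar.characteristic hp2 (hR p) (Rank.pRankLE_subgroup (hrk p hp hp2)) ?_ ?_ ?_
    · intro x hx
      exact Subtype.ext (hexp _ hx)
    · rw [Nat.card_congr (subgroupOfEquivOfLe hle).toEquiv]
      exact hcard
    · intro W hW g hg hWg
      have hn := hRn p
      have hWn : (W.map R.subtype).Normal := inferInstance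
      have h1 : P ⊓ W.map R.subtype = P := by
        refine h _ inf_le_left ?_ ?_ (g : H) hg ?_
        · refine le_trans (le_inf le_normalizer ?_) (inf_normalizer_le_normalizer_inf)
          rw [normalizer_eq_top]; exact le_top
        · refine le_trans (le_inf hSP ?_) (inf_normalizer_le_normalizer_inf)
          rw [normalizer_eq_top]; exact le_top
        · intro x hx
          have hx' : (⟨x, hle hx⟩ : R) ∈ W ⊔ zpowers g := hWg hx
          have hWR : W.Normal := inferInstance
          obtain ⟨w, hw, z, ⟨k, hz⟩, hwz⟩ := mem_sup_of_normal_left.1 hx'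
          have h3 : (w : H) * (g : H) ^ k = x := by
            have h4 : w * z = (⟨x, hle hx⟩ : R) := hwz
            have h5 : g ^ k = z := hz
            rw [← h5] at h4
            exact congrArg Subtype.val h4
          have h6 : (w : H) = x * ((g : H) ^ k)⁻¹ := by rw [← h3]; group
          have h7 : (w : H) ∈ P := by
            rw [h6]
            exact P.mul_mem hx (P.inv_mem (P.zpow_mem hg k))
          rw [← h3]
          exact mul_mem (mem_sup_left ⟨h7, w, hw, rfl⟩) (mem_sup_right (zpow_mem (mem_zpowers _) k))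
      intro x hx
      have h3 : (x : H) ∈ P ⊓ W.map R.subtype := by rw [h1]; exact hx
      obtain ⟨w, hw, hwx⟩ := h3.2
      have h4 : w = x := Subtype.ext hwx
      rwa [← h4]
  have hn := hRn p
  have h3 : (P.subgroupOf R).map R.subtype = P := by
    rw [subgroupOf_map_subtype, inf_eq_left.2 hle]
  rw [← h3]
  infer_instance

end Cfsg.Agent.QTSolv.Last
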